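import Cfsg.Agent.Chev.SL2Hom
import Cfsg.Agent.Chev.Simple
import Cfsg.Agent.Chev.FieldMap
import Cfsg.Agent.Chev.ValidG2
import Cfsg.Agent.Chev.SoundSys
import Cfsg.Agent.SL2.Basic

/-!
# The central product of two `SL₂` inside `G₂`

For the orthogonal roots `a` (index 7) and `c = 3a + 2b` (index 11) the map on pairs of invertible `2 × 2`
matrices of equal determinant; its kernel consists of the pairs of equal scalars.
-/

set_option autoImplicit false
set_option maxRecDepth 100000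
set_option linter.unusedSectionVars false

namespace CfsgLib.Chev.G2Odd

open Cfsg.Lie CfsgLib.Chev Matrix

universe u

/-- The fundamental system. -/
noncomputable abbrev SH : Sys.{u} chevG2 := Tbl.Valid.toSys DataG2.valid

variable {F : Type u} [Field F]

local notation "M₂ " g:max => ((g : SpecialLinearGroup (Fin 2) F) : Matrix (Fin 2) (Fin 2) F)

theorem sl_ext {g h : SpecialLinearGroup (Fin 2) F} (e : M₂ g = M₂ h) : g = h := Subtype.ext e

theorem simple_vals : chevG2.simple 0 = 7 ∧ chevG2.simple 1 = 6 := by decide +kernel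

theorem neg_vals : chevG2.neg 7 = 4 ∧ chevG2.neg 11 = 0 := by decide +kernel

theorem cr_vals : cr chevG2 7 0 = 2 ∧ cr chevG2 7 1 = -3 ∧ cr chevG2 11 0 = 0 ∧ cr chevG2 11 1 = 1 := by
  decide +kernel

theorem vec_table : ((List.range 12).map fun r => (SH.{u}.vec r 0, SH.{u}.vec r 1)) =
    [(-3, -2), (-3, -1), (-2, -1), (-1, -1), (-1, 0), (0, -1), (0, 1), (1, 0), (1, 1), (2, 1), (3, 1), (3, 2)] := by
  decide +kernel

theorem chi_eq (z : ℕ → Fˣ) {r : ℕ} (hr : r < 12) :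
    SH.chi z r = z 0 ^ (SH.{u}.vec r 0) * z 1 ^ (SH.{u}.vec r 1) := by
  simp [Sys.chi, show chevG2.rank = 2 from rfl, Finset.prod_range_succ]

theorem vec_vals : (SH.{u}.vec 7 0 = 1 ∧ SH.{u}.vec 7 1 = 0) ∧ (SH.{u}.vec 6 0 = 0 ∧ SH.{u}.vec 6 1 = 1) ∧
    (SH.{u}.vec 11 0 = 3 ∧ SH.{u}.vec 11 1 = 2) ∧ (SH.{u}.vec 4 0 = -1 ∧ SH.{u}.vec 4 1 = 0) ∧
    (SH.{u}.vec 0 0 = -3 ∧ SH.{u}.vec 0 1 = -2) ∧ (SH.{u}.vec 8 0 = 1 ∧ SH.{u}.vec 8 1 = 1) ∧
    (SH.{u}.vec 9 0 = 2 ∧ SH.{u}.vec 9 1 = 1) ∧ (SH.{u}.vec 10 0 = 3 ∧ SH.{u}.vec 10 1 = 1) := by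
  decide +kernel

theorem comm_empty : chevG2.commTerms 7 11 = [] ∧ chevG2.commTerms 4 11 = [] ∧
    chevG2.commTerms 7 0 = [] ∧ chevG2.commTerms 4 0 = [] := by
  decide +kernel

theorem xU_commute {r s : ℕ} (hr : r < 12) (hs : s < 12) (h1 : s ≠ r) (h2 : s ≠ chevG2.neg r)
    (he : chevG2.commTerms r s = []) (t v : F) : SH.xU s v * SH.xU r t = SH.xU r t * SH.xU s v := by
  rw [SH.comm_wU hr hs h1 h2]
  simp [ChevalleyDatum.commWord, he, Sys.wU]

/-- A torus element. -/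
noncomputable def tor (z : ℕ → Fˣ) : GL chevG2.Idx F := SH.dg z

theorem tor_mem_diag (z : ℕ → Fˣ) : tor z ∈ chevG2.diagonalSubgroup F := by
  refine SH.{u}.dg_mem_diag_of_unimodular (N := !![2, 1; 3, 2]) ?_ z
  decide +kernel

/-- The torus element with prescribed values at the fundamental roots. -/
noncomputable def zz (α β : Fˣ) : ℕ → Fˣ := fun i => if i = 0 then α else β

theorem tor_congr {z z' : ℕ → Fˣ} (h0 : z 0 = z' 0) (h1 : z 1 = z' 1) : tor z = tor z' := by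
  refine Units.ext ?_
  rw [tor, tor, Sys.coe_dg, Sys.coe_dg]
  congr 2
  funext s
  rw [chi_eq z s.2, chi_eq z' s.2, h0, h1]

theorem tor_eq (z : ℕ → Fˣ) : tor z = tor (zz (z 0) (z 1)) := tor_congr (by simp [zz]) (by simp [zz])

theorem tor_zz_mul (α β α' β' : Fˣ) : tor (zz α β) * tor (zz α' β') = tor (zz (α * α') (β * β')) := by
  rw [tor, tor, ← Sys.dg_mul]
  exact tor_congr (by simp [zz]) (by simp [zz])

theorem tor_zz_one : tor (zz (1 : Fˣ) 1) = 1 := by
  have h := tor_zz_mul (F := F) 1 1 1 1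
  rw [mul_one] at h
  exact mul_eq_left.1 h

theorem hz_zero (r : ℕ) (t : Fˣ) : hz chevG2 r t 0 = t ^ cr chevG2 r 0 := rfl

theorem hz_one (r : ℕ) (t : Fˣ) : hz chevG2 r t 1 = t ^ cr chevG2 r 1 := rfl

/-! ### Homomorphisms on `SL₂` -/

/-- An upper transvection. -/
def up (t : F) : SpecialLinearGroup (Fin 2) F := ⟨!![1, t; 0, 1], by simp [Matrix.det_fin_two]⟩

/-- A lower transvection. -/
def lo (t : F) : SpecialLinearGroup (Fin 2) F := ⟨!![1, 0; t, 1], by simp [Matrix.det_fin_two]⟩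

theorem sl2_closure : Subgroup.closure (Set.range (up (F := F)) ∪ Set.range lo) = ⊤ := by
  refine eq_top_iff.2 fun g _ => ?_
  set T := Subgroup.closure (Set.range (up (F := F)) ∪ Set.range lo)
  have hup : ∀ t, up t ∈ T := fun t => Subgroup.subset_closure (Or.inl ⟨t, rfl⟩)
  have hlo : ∀ t, lo t ∈ T := fun t => Subgroup.subset_closure (Or.inr ⟨t, rfl⟩)
  have hgen : ∀ b : SpecialLinearGroup (Fin 2) F, (M₂ b) 1 0 ≠ 0 → b ∈ T := by
    intro b h1
    have h2 : b = up (((M₂ b) 0 0 - 1) / (M₂ b) 1 0) * lo ((M₂ b) 1 0) * up (((M₂ b) 1 1 - 1) / (M₂ b) 1 0) := by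
      have hdet := b.2
      rw [Matrix.det_fin_two] at hdet
      refine sl_ext ?_
      show M₂ b = !![1, ((M₂ b) 0 0 - 1) / (M₂ b) 1 0; 0, 1] * !![1, 0; (M₂ b) 1 0, 1] *
        !![1, ((M₂ b) 1 1 - 1) / (M₂ b) 1 0; 0, 1]
      ext i j
      fin_cases i <;> fin_cases j <;> simp [Matrix.mul_fin_two] <;> field_simp <;> (first | ring1 | linear_combination hdet | linear_combination (-1 : F) * hdet)
    rw [h2]
    exact mul_mem (mul_mem (hup _) (hlo _)) (hup _)
  by_cases h : (M₂ g) 1 0 = 0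
  · have hd := g.2
    rw [Matrix.det_fin_two, h, mul_zero, sub_zero] at hd
    have h2 : (M₂ (lo (1 : F) * g)) 1 0 ≠ 0 := by
      show ((!![1, 0; 1, 1] : Matrix (Fin 2) (Fin 2) F) * M₂ g) 1 0 ≠ 0
      simp [Matrix.mul_apply, Fin.sum_univ_two, h, left_ne_zero_of_mul_eq_one hd]
    have := mul_mem (inv_mem (hlo (1 : F))) (hgen _ h2)
    rwa [inv_mul_cancel_left] at this
  · exact hgen g h

theorem sl2_ext {M : Type*} [Monoid M] {f g : SpecialLinearGroup (Fin 2) F →* M}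
    (h1 : ∀ t, f (up t) = g (up t)) (h2 : ∀ t, f (lo t) = g (lo t)) : f = g := by
  refine MonoidHom.eq_of_eqOn_dense sl2_closure ?_
  rintro _ (⟨t, rfl⟩ | ⟨t, rfl⟩)
  · exact h1 t
  · exact h2 t

/-- The homomorphism attached to a root. -/
noncomputable def phi (r : Fin 12) : SpecialLinearGroup (Fin 2) F →* GL chevG2.Idx F :=
  (SH.{u}.exists_sl2_hom (F := F) (r := (r : ℕ)) r.2).choose

theorem phi_up (r : Fin 12) (t : F) : phi r (up t) = SH.xU r t :=
  Sys.eq_xU SH (((SH.{u}.exists_sl2_hom (F := F) (r := (r : ℕ)) r.2).choose_spec.2 (up t) t).1 rfl)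

theorem phi_lo (r : Fin 12) (t : F) : phi r (lo t) = SH.xU (chevG2.neg r) t :=
  Sys.eq_xU SH (((SH.{u}.exists_sl2_hom (F := F) (r := (r : ℕ)) r.2).choose_spec.2 (lo t) t).2 rfl)

theorem phi_mem (r : Fin 12) (g : SpecialLinearGroup (Fin 2) F) : phi r g ∈ chevG2.group F := by
  have : Subgroup.closure (Set.range (up (F := F)) ∪ Set.range lo) ≤ (chevG2.group F).comap (phi r) := by
    rw [Subgroup.closure_le]
    rintro _ (⟨t, rfl⟩ | ⟨t, rfl⟩)
    · rw [SetLike.mem_coe, Subgroup.mem_comap, phi_up]; exact SH.xU_mem_group _ _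
    · rw [SetLike.mem_coe, Subgroup.mem_comap, phi_lo]; exact SH.xU_mem_group _ _
  exact this (sl2_closure (F := F) ▸ Subgroup.mem_top g)

/-- The root `a`. -/
abbrev ra : Fin 12 := 7

/-- The root `3a + 2b`. -/
abbrev rc : Fin 12 := 11

theorem phi_commute (g g' : SpecialLinearGroup (Fin 2) F) : phi ra g * phi rc g' = phi rc g' * phi ra g := by
  obtain ⟨e1, e2, e3, e4⟩ := comm_empty
  obtain ⟨n7, n11⟩ := neg_vals
  have key : ∀ x ∈ Set.range (up (F := F)) ∪ Set.range lo, ∀ y ∈ Set.range (up (F := F)) ∪ Set.range lo,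
      phi ra x * phi rc y = phi rc y * phi ra x := by
    rintro _ (⟨t, rfl⟩ | ⟨t, rfl⟩) _ (⟨v, rfl⟩ | ⟨v, rfl⟩) <;>
      simp only [phi_up, phi_lo, show ((ra : Fin 12) : ℕ) = 7 from rfl, show ((rc : Fin 12) : ℕ) = 11 from rfl,
        n7, n11]
    · exact (xU_commute (by norm_num) (by norm_num) (by norm_num) (by rw [n7]; norm_num) e1 t v).symm
    · exact (xU_commute (by norm_num) (by norm_num) (by norm_num) (by rw [n7]; norm_num) e3 t v).symm
    · exact (xU_commute (by norm_num) (by norm_num) (by norm_num) (by decide +kernel) e2 t v).symm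
    · exact (xU_commute (by norm_num) (by norm_num) (by norm_num) (by decide +kernel) e4 t v).symm
  have h1 : ∀ x ∈ Set.range (up (F := F)) ∪ Set.range lo, phi ra x * phi rc g' = phi rc g' * phi ra x := by
    intro x hx
    have hle : Subgroup.closure (Set.range (up (F := F)) ∪ Set.range lo) ≤
        (Subgroup.centralizer {phi ra x}).comap (phi rc) := by
      rw [Subgroup.closure_le]
      intro y hy
      exact Subgroup.mem_centralizer_singleton_iff.2 (key x hx y hy).symm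
    exact (Subgroup.mem_centralizer_singleton_iff.1 (hle (sl2_closure (F := F) ▸ Subgroup.mem_top g'))).symm
  have hle : Subgroup.closure (Set.range (up (F := F)) ∪ Set.range lo) ≤
      (Subgroup.centralizer {phi rc g'}).comap (phi ra) := by
    rw [Subgroup.closure_le]
    intro x hx
    exact Subgroup.mem_centralizer_singleton_iff.2 (h1 x hx)
  exact Subgroup.mem_centralizer_singleton_iff.1 (hle (sl2_closure (F := F) ▸ Subgroup.mem_top g))

/-- `diag(δ, 1)` in `GL₂`. -/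
noncomputable def dd (δ : Fˣ) : GL (Fin 2) F :=
  GeneralLinearGroup.mkOfDetNeZero !![(δ : F), 0; 0, 1] (by simp [Matrix.det_fin_two])

theorem coe_dd (δ : Fˣ) : (dd δ : Matrix (Fin 2) (Fin 2) F) = !![(δ : F), 0; 0, 1] := rfl

theorem det_dd (δ : Fˣ) : GeneralLinearGroup.det (dd δ) = δ := Units.ext (by simp [coe_dd, Matrix.det_fin_two])

theorem dd_mul (δ ε : Fˣ) : dd δ * dd ε = dd (δ * ε) := Units.ext (by simp [coe_dd, Matrix.mul_fin_two])

/-- Conjugation by `diag(δ, 1)` on `SL₂`. -/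
noncomputable def cj (δ : Fˣ) : SpecialLinearGroup (Fin 2) F →* SpecialLinearGroup (Fin 2) F where
  toFun g := ⟨((dd δ * SpecialLinearGroup.toGL g * (dd δ)⁻¹ : GL (Fin 2) F) : Matrix (Fin 2) (Fin 2) F), by
    have : GeneralLinearGroup.det (dd δ * SpecialLinearGroup.toGL g * (dd δ)⁻¹) = 1 := by
      rw [map_mul, map_mul, map_inv, mul_right_comm, mul_inv_cancel, one_mul]
      exact Units.ext g.2
    exact congrArg Units.val this⟩
  map_one' := Subtype.ext (by simp)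
  map_mul' g h := Subtype.ext (by
    show ((dd δ * SpecialLinearGroup.toGL (g * h) * (dd δ)⁻¹ : GL (Fin 2) F) : Matrix (Fin 2) (Fin 2) F) =
      ((dd δ * SpecialLinearGroup.toGL g * (dd δ)⁻¹ : GL (Fin 2) F) : Matrix (Fin 2) (Fin 2) F) *
      ((dd δ * SpecialLinearGroup.toGL h * (dd δ)⁻¹ : GL (Fin 2) F) : Matrix (Fin 2) (Fin 2) F)
    rw [← Units.val_mul, map_mul]
    congr 1
    group)

theorem toGL_cj (δ : Fˣ) (g : SpecialLinearGroup (Fin 2) F) :
    SpecialLinearGroup.toGL (cj δ g) = dd δ * SpecialLinearGroup.toGL g * (dd δ)⁻¹ := Units.ext rfl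

theorem cj_up (δ : Fˣ) (t : F) : cj δ (up t) = up ((δ : F) * t) := by
  refine Subtype.ext ?_
  show ((dd δ * SpecialLinearGroup.toGL (up t) * (dd δ)⁻¹ : GL (Fin 2) F) : Matrix (Fin 2) (Fin 2) F) = _
  have : dd δ * SpecialLinearGroup.toGL (up t) = SpecialLinearGroup.toGL (up ((δ : F) * t)) * dd δ :=
    Units.ext (show !![(δ : F), 0; 0, 1] * !![1, t; 0, 1] = !![1, (δ : F) * t; 0, 1] * !![(δ : F), 0; 0, 1] by
      simp [Matrix.mul_fin_two, mul_comm])
  rw [this, mul_inv_cancel_right]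
  rfl

theorem cj_lo (δ : Fˣ) (t : F) : cj δ (lo t) = lo ((δ⁻¹ : Fˣ) * t) := by
  refine Subtype.ext ?_
  show ((dd δ * SpecialLinearGroup.toGL (lo t) * (dd δ)⁻¹ : GL (Fin 2) F) : Matrix (Fin 2) (Fin 2) F) = _
  have : dd δ * SpecialLinearGroup.toGL (lo t) = SpecialLinearGroup.toGL (lo ((δ⁻¹ : Fˣ) * t : F)) * dd δ :=
    Units.ext (show !![(δ : F), 0; 0, 1] * !![1, 0; t, 1] = !![1, 0; ((δ⁻¹ : Fˣ) : F) * t, 1] * !![(δ : F), 0; 0, 1] by
      simp [Matrix.mul_fin_two, mul_comm, mul_left_comm])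
  rw [this, mul_inv_cancel_right]
  rfl

/-- The torus part of the map on pairs. -/
noncomputable def td (δ : Fˣ) : GL chevG2.Idx F := tor (zz δ δ⁻¹)

theorem td_mul (δ ε : Fˣ) : td δ * td ε = td (δ * ε) := by rw [td, td, tor_zz_mul, td, mul_inv]

theorem tor_conj (α β : Fˣ) {r : Fin 12} (hp : SH.chi (zz α β) (chevG2.neg r) = (SH.chi (zz α β) r)⁻¹)
    (g : SpecialLinearGroup (Fin 2) F) :
    tor (zz α β) * phi r g * (tor (zz α β))⁻¹ = phi r (cj (SH.chi (zz α β) r) g) := by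
  refine DFunLike.congr_fun (sl2_ext (f := (MulAut.conj (tor (zz α β))).toMonoidHom.comp (phi r))
    (g := (phi r).comp (cj (SH.chi (zz α β) r))) (fun t => ?_) (fun t => ?_)) g
  · show tor (zz α β) * phi r (up t) * (tor (zz α β))⁻¹ = phi r (cj _ (up t))
    rw [cj_up, phi_up, phi_up, tor, SH.dg_conj_xU _ r.2]
  · show tor (zz α β) * phi r (lo t) * (tor (zz α β))⁻¹ = phi r (cj _ (lo t))
    rw [cj_lo, phi_lo, phi_lo, tor, SH.dg_conj_xU _ (SH.{u}.neg_lt (show (r : ℕ) < chevG2.nroots from r.2)), hp]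

theorem chi_a (α β : Fˣ) : SH.chi (zz α β) (ra : ℕ) = α ∧ SH.chi (zz α β) (chevG2.neg (ra : ℕ)) = α⁻¹ := by
  refine ⟨?_, ?_⟩
  · rw [show ((ra : Fin 12) : ℕ) = 7 from rfl, chi_eq _ (by norm_num), vec_vals.1.1, vec_vals.1.2]
    simp [zz]
  · rw [show chevG2.neg (ra : ℕ) = 4 from neg_vals.1, chi_eq _ (by norm_num), vec_vals.2.2.2.1.1,
      vec_vals.2.2.2.1.2]
    simp [zz]

theorem chi_c (α β : Fˣ) : SH.chi (zz α β) (rc : ℕ) = α ^ 3 * β ^ 2 ∧
    SH.chi (zz α β) (chevG2.neg (rc : ℕ)) = (α ^ 3 * β ^ 2)⁻¹ := by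
  refine ⟨?_, ?_⟩
  · rw [show ((rc : Fin 12) : ℕ) = 11 from rfl, chi_eq _ (by norm_num), vec_vals.2.2.1.1, vec_vals.2.2.1.2]
    simp [zz, zpow_ofNat]
  · rw [show chevG2.neg (rc : ℕ) = 0 from neg_vals.2, chi_eq _ (by norm_num), vec_vals.2.2.2.2.1.1,
      vec_vals.2.2.2.2.1.2]
    simp [zz, _root_.zpow_neg, zpow_ofNat, mul_comm]

theorem td_conj_a (δ : Fˣ) (g : SpecialLinearGroup (Fin 2) F) :
    td δ * phi ra g * (td δ)⁻¹ = phi ra (cj δ g) := by
  have h := tor_conj δ δ⁻¹ (r := ra) (by rw [(chi_a _ _).1, (chi_a _ _).2]) g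
  rwa [(chi_a _ _).1] at h

theorem td_conj_c (δ : Fˣ) (g : SpecialLinearGroup (Fin 2) F) :
    td δ * phi rc g * (td δ)⁻¹ = phi rc (cj δ g) := by
  have h := tor_conj δ δ⁻¹ (r := rc) (by rw [(chi_c _ _).1, (chi_c _ _).2]) g
  rwa [(chi_c _ _).1, show δ ^ 3 * δ⁻¹ ^ 2 = δ by group] at h

/-! ### The map on pairs -/

/-- Pairs of equal determinant. -/
def pairs (F : Type u) [Field F] : Subgroup (GL (Fin 2) F × GL (Fin 2) F) :=
  (GeneralLinearGroup.det.comp (MonoidHom.fst _ _)).eqLocus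
    (GeneralLinearGroup.det.comp (MonoidHom.snd (GL (Fin 2) F) (GL (Fin 2) F)))

theorem mem_pairs {p : GL (Fin 2) F × GL (Fin 2) F} :
    p ∈ pairs F ↔ GeneralLinearGroup.det p.1 = GeneralLinearGroup.det p.2 := Iff.rfl

/-- The special part of an invertible matrix. -/
noncomputable def spart (g : GL (Fin 2) F) : SpecialLinearGroup (Fin 2) F :=
  ⟨(((dd (GeneralLinearGroup.det g))⁻¹ * g : GL (Fin 2) F) : Matrix (Fin 2) (Fin 2) F), by
    have : GeneralLinearGroup.det ((dd (GeneralLinearGroup.det g))⁻¹ * g) = 1 := by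
      rw [map_mul, map_inv, det_dd, inv_mul_cancel]
    exact congrArg Units.val this⟩

theorem dd_spart (g : GL (Fin 2) F) :
    dd (GeneralLinearGroup.det g) * SpecialLinearGroup.toGL (spart g) = g := by
  rw [show SpecialLinearGroup.toGL (spart g) = (dd (GeneralLinearGroup.det g))⁻¹ * g from Units.ext rfl,
    mul_inv_cancel_left]

theorem spart_unique {g : GL (Fin 2) F} {δ : Fˣ} {s : SpecialLinearGroup (Fin 2) F}
    (h : dd δ * SpecialLinearGroup.toGL s = g) : GeneralLinearGroup.det g = δ ∧ spart g = s := by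
  have hd : GeneralLinearGroup.det g = δ := by
    rw [← h, map_mul, det_dd, show GeneralLinearGroup.det (SpecialLinearGroup.toGL s) = 1 from Units.ext s.2, mul_one]
  refine ⟨hd, SpecialLinearGroup.toGL_injective (mul_left_cancel (a := dd δ) ?_)⟩
  rw [h]
  conv_lhs => arg 1; rw [← hd]
  exact dd_spart g

/-- The map on pairs of matrices of equal determinant. -/
noncomputable def Phi : pairs F →* GL chevG2.Idx F :=
  MonoidHom.mk' (fun p => td (GeneralLinearGroup.det p.1.1) * phi ra (spart p.1.1) * phi rc (spart p.1.2))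
    fun p q => by
      set δ := GeneralLinearGroup.det p.1.1 with hδ
      set ε := GeneralLinearGroup.det q.1.1 with hε
      have hp2 : GeneralLinearGroup.det p.1.2 = δ := (mem_pairs.1 p.2).symm
      have hq2 : GeneralLinearGroup.det q.1.2 = ε := (mem_pairs.1 q.2).symm
      have key : ∀ {x y : GL (Fin 2) F}, GeneralLinearGroup.det x = δ → GeneralLinearGroup.det y = ε →
          GeneralLinearGroup.det (x * y) = δ * ε ∧ spart (x * y) = cj ε⁻¹ (spart x) * spart y := by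
        intro x y hx hy
        apply spart_unique
        rw [map_mul, toGL_cj]
        conv_rhs => rw [← dd_spart x, ← dd_spart y, hx, hy]
        rw [← dd_mul, show dd ε⁻¹ = (dd ε)⁻¹ from eq_inv_of_mul_eq_one_left (by
          rw [dd_mul, inv_mul_cancel]; exact Units.ext (by simp [coe_dd, Matrix.one_fin_two]))]
        group
      obtain ⟨k1, k2⟩ := key hδ.symm hε.symm
      obtain ⟨-, k4⟩ := key hp2 hq2
      show td (GeneralLinearGroup.det (p.1.1 * q.1.1)) * phi ra (spart (p.1.1 * q.1.1)) *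
          phi rc (spart (p.1.2 * q.1.2)) = _
      rw [k1, k2, k4, map_mul, map_mul]
      have e1 := td_conj_a ε (cj ε⁻¹ (spart p.1.1))
      have e2 := td_conj_c ε (cj ε⁻¹ (spart p.1.2))
      have hcc : ∀ s, cj ε (cj ε⁻¹ s) = s := fun s => SpecialLinearGroup.toGL_injective (by
        rw [toGL_cj, toGL_cj, show dd ε⁻¹ = (dd ε)⁻¹ from eq_inv_of_mul_eq_one_left (by
          rw [dd_mul, inv_mul_cancel]; exact Units.ext (by simp [coe_dd, Matrix.one_fin_two]))]
        group)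
      rw [hcc] at e1 e2
      rw [← e1, ← e2, ← td_mul]
      have hc := phi_commute (spart q.1.1) (cj ε⁻¹ (spart p.1.2))
      calc td δ * td ε * (phi ra (cj ε⁻¹ (spart p.1.1)) * phi ra (spart q.1.1)) *
            (phi rc (cj ε⁻¹ (spart p.1.2)) * phi rc (spart q.1.2))
          = td δ * td ε * phi ra (cj ε⁻¹ (spart p.1.1)) *
              (phi ra (spart q.1.1) * phi rc (cj ε⁻¹ (spart p.1.2))) * phi rc (spart q.1.2) := by group
        _ = _ := by rw [hc]; group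

theorem Phi_apply (p : pairs F) :
    Phi p = td (GeneralLinearGroup.det p.1.1) * phi ra (spart p.1.1) * phi rc (spart p.1.2) := rfl

theorem Phi_mem (p : pairs F) : Phi p ∈ chevG2.group F :=
  mul_mem (mul_mem (SH.{u}.diag_le_group (tor_mem_diag _)) (phi_mem _ _)) (phi_mem _ _)

/-- A pair of elements of `SL₂`. -/
noncomputable def pSL (s s' : SpecialLinearGroup (Fin 2) F) : pairs F :=
  ⟨(SpecialLinearGroup.toGL s, SpecialLinearGroup.toGL s'),
    mem_pairs.2 ((Units.ext s.2 : GeneralLinearGroup.det (SpecialLinearGroup.toGL s) = 1).trans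
      (Units.ext s'.2 : GeneralLinearGroup.det (SpecialLinearGroup.toGL s') = 1).symm)⟩

theorem dd_one : dd (1 : Fˣ) = 1 := Units.ext (by simp [coe_dd, Matrix.one_fin_two])

theorem Phi_pSL (s s' : SpecialLinearGroup (Fin 2) F) : Phi (pSL s s') = phi ra s * phi rc s' := by
  obtain ⟨h1, h2⟩ := spart_unique (g := SpecialLinearGroup.toGL s) (δ := 1) (s := s) (by rw [dd_one, one_mul])
  obtain ⟨-, h4⟩ := spart_unique (g := SpecialLinearGroup.toGL s') (δ := 1) (s := s') (by rw [dd_one, one_mul])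
  rw [Phi_apply]
  simp only [pSL, h1, h2, h4]
  rw [td, inv_one, tor_zz_one, one_mul]

/-- A diagonal matrix in `GL₂`. -/
noncomputable def dg2 (x y : Fˣ) : GL (Fin 2) F :=
  GeneralLinearGroup.mkOfDetNeZero !![(x : F), 0; 0, (y : F)] (by simp [Matrix.det_fin_two])

theorem coe_dg2 (x y : Fˣ) : (dg2 x y : Matrix (Fin 2) (Fin 2) F) = !![(x : F), 0; 0, (y : F)] := rfl

theorem det_dg2 (x y : Fˣ) : GeneralLinearGroup.det (dg2 x y) = x * y :=
  Units.ext (by simp [coe_dg2, Matrix.det_fin_two])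

/-- `diag(t, 1/t)` in `SL₂`. -/
def dsl (t : Fˣ) : SpecialLinearGroup (Fin 2) F :=
  ⟨!![(t : F), 0; 0, (t⁻¹ : Fˣ)], by simp [Matrix.det_fin_two]⟩

/-- The element `[[0,1],[-1,0]]` of `SL₂`. -/
def wsl : SpecialLinearGroup (Fin 2) F := ⟨!![0, 1; -1, 0], by simp [Matrix.det_fin_two]⟩

theorem phi_wsl (r : Fin 12) : phi r (wsl (F := F)) = SH.nU r 1 := by
  have e : (wsl : SpecialLinearGroup (Fin 2) F) = up 1 * lo (-1) * up 1 := by
    refine sl_ext ?_
    show !![(0:F), 1; -1, 0] = !![1, 1; 0, 1] * !![1, 0; -1, 1] * !![1, 1; 0, 1]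
    simp [Matrix.mul_fin_two]
  rw [e, map_mul, map_mul, phi_up, phi_lo, Sys.nU_eq, inv_one]

theorem phi_dsl (r : Fin 12) (t : Fˣ) : phi r (dsl t) = tor (hz chevG2 r t) := by
  have e : dsl t = up (t : F) * lo (-(t : F)⁻¹) * up (t : F) * (up (-1) * lo 1 * up (-1)) := by
    refine sl_ext ?_
    show !![(t : F), 0; 0, ((t⁻¹ : Fˣ) : F)] = !![1, (t : F); 0, 1] * !![1, 0; -(t : F)⁻¹, 1] * !![1, (t : F); 0, 1] *
      (!![1, -1; 0, 1] * !![1, 0; 1, 1] * !![1, -1; 0, 1])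
    simp [Matrix.mul_fin_two]
  rw [e, tor, ← SH.hU_eq_dg (show (r : ℕ) < chevG2.nroots from r.2), Sys.hU_eq, Sys.nU_eq, Sys.nU_eq]
  simp only [map_mul, phi_up, phi_lo, inv_neg, inv_one, neg_neg]

theorem Phi_diag {x y x' y' : Fˣ} (h : x * y = x' * y') :
    Phi ⟨(dg2 x y, dg2 x' y'), mem_pairs.2 (by rw [det_dg2, det_dg2, h])⟩ =
      tor (zz (x * y⁻¹) (x' * y * (x * x)⁻¹)) := by
  obtain ⟨h1, h2⟩ := spart_unique (g := dg2 x y) (δ := x * y) (s := dsl y⁻¹)
    (Units.ext (show !![((x * y : Fˣ) : F), 0; 0, 1] * !![((y⁻¹ : Fˣ) : F), 0; 0, (((y⁻¹)⁻¹ : Fˣ) : F)] = !![(x : F), 0; 0, (y : F)] by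
      simp [Matrix.mul_fin_two, mul_assoc]))
  obtain ⟨-, h4⟩ := spart_unique (g := dg2 x' y') (δ := x' * y') (s := dsl y'⁻¹)
    (Units.ext (show !![((x' * y' : Fˣ) : F), 0; 0, 1] * !![((y'⁻¹ : Fˣ) : F), 0; 0, (((y'⁻¹)⁻¹ : Fˣ) : F)] = !![(x' : F), 0; 0, (y' : F)] by
      simp [Matrix.mul_fin_two, mul_assoc]))
  rw [Phi_apply]
  simp only [h1, h2, h4, phi_dsl, td]
  rw [tor, tor, tor, ← Sys.dg_mul, ← Sys.dg_mul]
  obtain ⟨c1, c2, c3, c4⟩ := cr_vals
  have hy' : y' = x * y * x'⁻¹ := by rw [h]; group; simp [mul_comm]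
  refine tor_congr ?_ ?_
  · simp only [Pi.mul_apply, hz_zero, show ((ra : Fin 12) : ℕ) = 7 from rfl,
      show ((rc : Fin 12) : ℕ) = 11 from rfl, c1, c3, zz]
    simp [zpow_ofNat, _root_.zpow_neg, pow_succ, mul_comm, mul_left_comm]
  · simp only [Pi.mul_apply, hz_one, show ((ra : Fin 12) : ℕ) = 7 from rfl,
      show ((rc : Fin 12) : ℕ) = 11 from rfl, c2, c4, zz, hy']
    refine Units.ext ?_
    simp [zpow_ofNat, _root_.zpow_neg]
    field_simp

theorem tor_eq_Phi (α β : Fˣ) : ∃ p : pairs F, Phi p = tor (zz α β) := by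
  refine ⟨_, (Phi_diag (x := α) (y := 1) (x' := β * α ^ 2) (y' := β⁻¹ * α⁻¹) ?_).trans ?_⟩
  · simp [pow_two, mul_comm, mul_left_comm, mul_assoc]
  · refine tor_congr (by simp [zz]) (Units.ext ?_)
    simp [zz]
    field_simp

theorem chi_of_tor_one {z : ℕ → Fˣ} (h : SH.dg z = 1) (s : Fin 12) : SH.chi z s = 1 := by
  refine Units.ext ?_
  have e : (SH.dg z : Matrix chevG2.Idx chevG2.Idx F) (Sum.inr s) (Sum.inr s) =
      (1 : Matrix chevG2.Idx chevG2.Idx F) (Sum.inr s) (Sum.inr s) := by rw [h, Units.val_one]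
  rw [Sys.coe_dg, diagonal_apply_eq, Matrix.one_apply_eq] at e
  exact e

theorem phi_eq_one {r : Fin 12} (hr : 6 ≤ (r : ℕ)) {g : SpecialLinearGroup (Fin 2) F} (h : phi r g = 1) :
    (M₂ g) 1 0 = 0 := by
  by_contra hc
  have e : g = up (((M₂ g) 0 0 - 1) / (M₂ g) 1 0) * lo ((M₂ g) 1 0) * up (((M₂ g) 1 1 - 1) / (M₂ g) 1 0) := by
    have hdet := g.2
    rw [Matrix.det_fin_two] at hdet
    refine sl_ext ?_
    show M₂ g = !![1, ((M₂ g) 0 0 - 1) / (M₂ g) 1 0; 0, 1] * !![1, 0; (M₂ g) 1 0, 1] *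
      !![1, ((M₂ g) 1 1 - 1) / (M₂ g) 1 0; 0, 1]
    ext i j
    fin_cases i <;> fin_cases j <;> simp [Matrix.mul_fin_two] <;> field_simp <;> (first | ring1 | linear_combination hdet | linear_combination (-1 : F) * hdet)
  rw [e, map_mul, map_mul, phi_up, phi_up, phi_lo] at h
  have hU : ∀ t, SH.xU (r : ℕ) t ∈ chevG2.posUnipotent F := fun t => SH.xU_mem_posUnipotent hr r.2 t
  have hm : SH.xU (chevG2.neg r) ((M₂ g) 1 0) ∈ chevG2.posUnipotent F := by
    have h3 := mul_mem (inv_mem (hU (((M₂ g) 0 0 - 1) / (M₂ g) 1 0))) (inv_mem (hU (((M₂ g) 1 1 - 1) / (M₂ g) 1 0)))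
    convert h3 using 1
    rw [eq_inv_mul_iff_mul_eq, eq_inv_iff_mul_eq_one]
    exact h
  have := SH.pos_of_xU_mem (SH.{u}.neg_lt (show (r : ℕ) < chevG2.nroots from r.2)) hc hm
  have hn : chevG2.neg r < 6 :=
    (show ∀ r : Fin 12, 6 ≤ (r : ℕ) → chevG2.neg r < 6 by decide +kernel) r hr
  have : chevG2.nroots / 2 = 6 := rfl
  omega

theorem phi_a_injective : Function.Injective (phi (F := F) ra) := by
  rw [injective_iff_map_eq_one]
  intro g h
  have hc := phi_eq_one (by decide) h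
  have hd := g.2
  rw [Matrix.det_fin_two, hc, mul_zero, sub_zero] at hd
  set t : Fˣ := ⟨(M₂ g) 0 0, (M₂ g) 1 1, hd, by rwa [mul_comm] at hd⟩
  have e : g = dsl t * up ((M₂ g) 1 1 * (M₂ g) 0 1) := by
    refine sl_ext ?_
    show M₂ g = !![(t : F), 0; 0, ((t⁻¹ : Fˣ) : F)] * !![1, (M₂ g) 1 1 * (M₂ g) 0 1; 0, 1]
    ext i j
    fin_cases i <;> fin_cases j <;> simp [Matrix.mul_apply, Fin.sum_univ_two, t, hc]
    linear_combination (-((M₂ g) 0 1)) * hd
  rw [e, map_mul, phi_dsl, phi_up] at h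
  have hx : SH.xU ((ra : Fin 12) : ℕ) ((M₂ g) 1 1 * (M₂ g) 0 1) ∈ chevG2.posUnipotent F ⊓ chevG2.diagonalSubgroup F := by
    refine Subgroup.mem_inf.2 ⟨SH.xU_mem_posUnipotent (by decide) (by decide) _, ?_⟩
    rw [← inv_eq_of_mul_eq_one_right h]
    exact inv_mem (tor_mem_diag _)
  rw [SH.pos_inf_diag, Subgroup.mem_bot] at hx
  have ht : (M₂ g) 1 1 * (M₂ g) 0 1 = 0 := by
    by_contra hne
    exact SH.xU_ne_one (by decide) hne hx
  rw [hx, mul_one, tor] at h
  have hs : ∀ s : Fin 12, SH.chi (hz chevG2 ((ra : Fin 12) : ℕ) t) s = 1 := chi_of_tor_one h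
  obtain ⟨c1, c2, -, -⟩ := cr_vals
  have h7 : SH.chi (hz chevG2 ((ra : Fin 12) : ℕ) t) 7 = 1 := hs 7
  have h6 : SH.chi (hz chevG2 ((ra : Fin 12) : ℕ) t) 6 = 1 := hs 6
  rw [chi_eq _ (by decide), hz_zero, hz_one, show ((ra : Fin 12) : ℕ) = 7 from rfl, c1, c2] at h6 h7
  rw [vec_vals.1.1, vec_vals.1.2] at h7
  rw [vec_vals.2.1.1, vec_vals.2.1.2] at h6
  simp [zpow_ofNat] at h6 h7
  have ht1 : t = 1 := by
    have : t ^ 3 = t ^ 2 * t := pow_succ t 2
    rw [h6, h7, one_mul] at this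
    exact this.symm
  rw [e, ht, ht1]
  refine sl_ext ?_
  show !![((1 : Fˣ) : F), 0; 0, (((1 : Fˣ)⁻¹ : Fˣ) : F)] * !![1, (0 : F); 0, 1] = 1
  simp [Matrix.one_fin_two]

theorem phi_c_injective : Function.Injective (phi (F := F) rc) := by
  rw [injective_iff_map_eq_one]
  intro g h
  have hc := phi_eq_one (by decide) h
  have hd := g.2
  rw [Matrix.det_fin_two, hc, mul_zero, sub_zero] at hd
  set t : Fˣ := ⟨(M₂ g) 0 0, (M₂ g) 1 1, hd, by rwa [mul_comm] at hd⟩
  have e : g = dsl t * up ((M₂ g) 1 1 * (M₂ g) 0 1) := by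
    refine sl_ext ?_
    show M₂ g = !![(t : F), 0; 0, ((t⁻¹ : Fˣ) : F)] * !![1, (M₂ g) 1 1 * (M₂ g) 0 1; 0, 1]
    ext i j
    fin_cases i <;> fin_cases j <;> simp [Matrix.mul_apply, Fin.sum_univ_two, t, hc]
    linear_combination (-((M₂ g) 0 1)) * hd
  rw [e, map_mul, phi_dsl, phi_up] at h
  have hx : SH.xU ((rc : Fin 12) : ℕ) ((M₂ g) 1 1 * (M₂ g) 0 1) ∈ chevG2.posUnipotent F ⊓ chevG2.diagonalSubgroup F := by
    refine Subgroup.mem_inf.2 ⟨SH.xU_mem_posUnipotent (by decide) (by decide) _, ?_⟩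
    rw [← inv_eq_of_mul_eq_one_right h]
    exact inv_mem (tor_mem_diag _)
  rw [SH.pos_inf_diag, Subgroup.mem_bot] at hx
  have ht : (M₂ g) 1 1 * (M₂ g) 0 1 = 0 := by
    by_contra hne
    exact SH.xU_ne_one (by decide) hne hx
  rw [hx, mul_one, tor] at h
  have h6 : SH.chi (hz chevG2 ((rc : Fin 12) : ℕ) t) 6 = 1 := chi_of_tor_one h (6 : Fin 12)
  obtain ⟨-, -, c3, c4⟩ := cr_vals
  rw [chi_eq _ (by decide), hz_zero, hz_one, show ((rc : Fin 12) : ℕ) = 11 from rfl, c3, c4,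
    vec_vals.2.1.1, vec_vals.2.1.2] at h6
  simp only [zpow_one, zpow_zero, one_mul] at h6
  rw [e, ht, h6]
  refine sl_ext ?_
  show !![((1 : Fˣ) : F), 0; 0, (((1 : Fˣ)⁻¹ : Fˣ) : F)] * !![1, (0 : F); 0, 1] = 1
  simp [Matrix.one_fin_two]

/-- A scalar matrix. -/
noncomputable def sc (z : Fˣ) : GL (Fin 2) F := dg2 z z

theorem scalar_of_commute {g : GL (Fin 2) F}
    (h1 : ∀ t, g * SpecialLinearGroup.toGL (up t) = SpecialLinearGroup.toGL (up t) * g)
    (h2 : ∀ t, g * SpecialLinearGroup.toGL (lo t) = SpecialLinearGroup.toGL (lo t) * g) :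
    ∃ z : Fˣ, g = sc z := by
  have e1 := congrArg (fun x : GL (Fin 2) F => (x : Matrix (Fin 2) (Fin 2) F)) (h1 1)
  have e2 := congrArg (fun x : GL (Fin 2) F => (x : Matrix (Fin 2) (Fin 2) F)) (h2 1)
  change (g : Matrix (Fin 2) (Fin 2) F) * !![1, 1; 0, 1] = !![1, 1; 0, 1] * (g : Matrix (Fin 2) (Fin 2) F) at e1
  change (g : Matrix (Fin 2) (Fin 2) F) * !![1, 0; 1, 1] = !![1, 0; 1, 1] * (g : Matrix (Fin 2) (Fin 2) F) at e2
  have a := congrFun (congrFun e1 0) 0
  have b := congrFun (congrFun e1 0) 1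
  have c := congrFun (congrFun e2 1) 1
  simp [up, lo, Matrix.mul_apply, Fin.sum_univ_two] at a b c
  have h10 : (g : Matrix (Fin 2) (Fin 2) F) 1 0 = 0 := by linear_combination a
  have h01 : (g : Matrix (Fin 2) (Fin 2) F) 0 1 = 0 := by linear_combination c
  have h11 : (g : Matrix (Fin 2) (Fin 2) F) 1 1 = (g : Matrix (Fin 2) (Fin 2) F) 0 0 := by
    linear_combination (-1 : F) * b + (2 : F) * (0 : F)
  have hne : (g : Matrix (Fin 2) (Fin 2) F) 0 0 ≠ 0 := by
    intro h0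
    have := (Matrix.GeneralLinearGroup.det g).ne_zero
    rw [Matrix.GeneralLinearGroup.val_det_apply, Matrix.det_fin_two, h0, h01, zero_mul, zero_mul, sub_zero] at this
    exact this rfl
  refine ⟨Units.mk0 _ hne, Units.ext ?_⟩
  rw [sc, coe_dg2]
  ext i j
  fin_cases i <;> fin_cases j <;> simp [h10, h01, h11]

theorem Phi_ker {p : pairs F} : Phi p = 1 ↔ ∃ z : Fˣ, p.1 = (sc z, sc z) := by
  constructor
  · intro h
    have hconj : ∀ q : pairs F, Phi (p * q * p⁻¹) = Phi q := fun q => by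
      rw [map_mul, map_mul, map_inv, h, one_mul, inv_one, mul_one]
    have hs : ∀ s s', ∃ k k', p * pSL s s' * p⁻¹ = pSL k k' ∧ phi ra k * phi rc k' = phi ra s * phi rc s' := by
      intro s s'
      have hd : ∀ (x : GL (Fin 2) F) (s : SpecialLinearGroup (Fin 2) F),
          ∃ k, SpecialLinearGroup.toGL k = x * SpecialLinearGroup.toGL s * x⁻¹ := fun x s => by
        refine ⟨⟨((x * SpecialLinearGroup.toGL s * x⁻¹ : GL (Fin 2) F) : Matrix (Fin 2) (Fin 2) F), ?_⟩, Units.ext rfl⟩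
        have : GeneralLinearGroup.det (x * SpecialLinearGroup.toGL s * x⁻¹) = 1 := by
          rw [map_mul, map_mul, map_inv, mul_right_comm, mul_inv_cancel, one_mul]
          exact Units.ext s.2
        exact congrArg Units.val this
      obtain ⟨k, hk⟩ := hd p.1.1 s
      obtain ⟨k', hk'⟩ := hd p.1.2 s'
      have e : p * pSL s s' * p⁻¹ = pSL k k' := Subtype.ext (Prod.ext hk.symm hk'.symm)
      exact ⟨k, k', e, by rw [← Phi_pSL, ← e, hconj, Phi_pSL]⟩
    have ha : ∀ s, p.1.1 * SpecialLinearGroup.toGL s = SpecialLinearGroup.toGL s * p.1.1 := by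
      intro s
      obtain ⟨k, k', e, ek⟩ := hs s 1
      have e2 := congrArg (fun x : pairs F => x.1.2) e
      have hk' : k' = 1 := SpecialLinearGroup.toGL_injective (by simpa [pSL] using e2.symm)
      rw [hk', map_one, mul_one, mul_one] at ek
      have e1 : p.1.1 * SpecialLinearGroup.toGL s * p.1.1⁻¹ = SpecialLinearGroup.toGL k :=
        congrArg (fun x : pairs F => x.1.1) e
      rw [phi_a_injective ek] at e1
      exact mul_inv_eq_iff_eq_mul.1 e1
    have hb : ∀ s, p.1.2 * SpecialLinearGroup.toGL s = SpecialLinearGroup.toGL s * p.1.2 := by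
      intro s
      obtain ⟨k, k', e, ek⟩ := hs 1 s
      have e2 := congrArg (fun x : pairs F => x.1.1) e
      have hk : k = 1 := SpecialLinearGroup.toGL_injective (by simpa [pSL] using e2.symm)
      rw [hk, map_one, one_mul, one_mul] at ek
      have e1 : p.1.2 * SpecialLinearGroup.toGL s * p.1.2⁻¹ = SpecialLinearGroup.toGL k' :=
        congrArg (fun x : pairs F => x.1.2) e
      rw [phi_c_injective ek] at e1
      exact mul_inv_eq_iff_eq_mul.1 e1
    obtain ⟨x, hx⟩ := scalar_of_commute (fun t => ha (up t)) (fun t => ha (lo t))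
    obtain ⟨y, hy⟩ := scalar_of_commute (fun t => hb (up t)) (fun t => hb (lo t))
    refine ⟨x, Prod.ext hx ?_⟩
    have hdet : x * x = y * y := by
      have := mem_pairs.1 p.2
      rwa [hx, hy, sc, sc, det_dg2, det_dg2] at this
    have hp : p = ⟨(dg2 x x, dg2 y y), mem_pairs.2 (by rw [det_dg2, det_dg2, hdet])⟩ :=
      Subtype.ext (Prod.ext hx hy)
    rw [hp, Phi_diag hdet] at h
    have h6 : SH.chi (zz (x * x⁻¹) (y * x * (x * x)⁻¹)) ((6 : Fin 12) : ℕ) = 1 := chi_of_tor_one h (6 : Fin 12)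
    rw [show ((6 : Fin 12) : ℕ) = 6 from rfl, chi_eq _ (by norm_num), vec_vals.2.1.1, vec_vals.2.1.2] at h6
    simp [zz] at h6
    rw [hy]
    have : y = x := by
      calc y = y * x * (x * x)⁻¹ * x := by group
        _ = x := by rw [show y * x * (x * x)⁻¹ = 1 from by simpa using h6, one_mul]
    rw [this]
  · rintro ⟨z, hz⟩
    have : p = ⟨(dg2 z z, dg2 z z), mem_pairs.2 rfl⟩ := Subtype.ext hz
    rw [this, Phi_diag rfl]
    exact (tor_congr (by simp [zz]) (by simp [zz, mul_comm])).trans tor_zz_one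

end CfsgLib.Chev.G2Odd
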