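import Cfsg.Agent.Chev.G2Odd.Hom
import Cfsg.Agent.Chev.SoundEngine
import Cfsg.Agent.Chev.BN

/-!
# Involutions of `G₂(q)`, `q` odd

The centraliser of `h = tor (1, -1)` is the image of the pairs of matrices of equal determinant, and every
involution is conjugate to `h`.
-/

set_option autoImplicit false
set_option maxRecDepth 100000
set_option linter.unusedSectionVars false

namespace CfsgLib.Chev.G2Odd

open Cfsg.Lie CfsgLib.Chev Matrix

universe u

variable {F : Type u} [Field F]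

/-- The involution. -/
noncomputable def h₀ : GL chevG2.Idx F := tor (zz 1 (-1))

theorem h₀_mem : (h₀ : GL chevG2.Idx F) ∈ chevG2.group F := SH.{u}.diag_le_group (tor_mem_diag _)

theorem chi_h₀ {r : ℕ} (hr : r < 12) : SH.chi (zz (1 : Fˣ) (-1)) r = (-1) ^ (SH.{u}.vec r 1) := by
  rw [chi_eq _ hr]; simp [zz]

theorem h₀_conj_xU {r : ℕ} (hr : r < 12) (t : F) :
    h₀ * SH.xU r t * h₀⁻¹ = SH.xU r (((-1 : Fˣ) ^ (SH.{u}.vec r 1) : Fˣ) * t) := by
  rw [h₀, tor, SH.dg_conj_xU _ (show r < chevG2.nroots from hr), chi_h₀ hr]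

/-- The pair `(1, -1)`. -/
noncomputable def negPair : pairs F :=
  ⟨(dg2 1 1, dg2 (-1) (-1)), mem_pairs.2 (by rw [det_dg2, det_dg2]; simp)⟩

theorem Phi_negPair : Phi (negPair (F := F)) = h₀ := by
  rw [negPair, Phi_diag (by simp), h₀]
  exact tor_congr (by simp [zz]) (by simp [zz])

theorem dg2_scalar_comm (x : Fˣ) (g : GL (Fin 2) F) : dg2 x x * g = g * dg2 x x := by
  refine Units.ext ?_
  rw [Units.val_mul, Units.val_mul, coe_dg2]
  ext i j
  fin_cases i <;> fin_cases j <;> simp [Matrix.mul_apply, Fin.sum_univ_two, mul_comm]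

theorem negPair_comm (p : pairs F) : negPair * p = p * negPair :=
  Subtype.ext (Prod.ext (dg2_scalar_comm 1 _) (dg2_scalar_comm (-1) _))

theorem range_commutes {g : GL chevG2.Idx F} (hg : g ∈ (Phi (F := F)).range) : h₀ * g = g * h₀ := by
  obtain ⟨p, rfl⟩ := hg
  rw [← Phi_negPair, ← map_mul, ← map_mul, negPair_comm]

theorem xU_inj {r : ℕ} (hr : r < 12) {t t' : F} (h : SH.xU r t = SH.xU r t') : t = t' := by
  by_contra hne
  refine SH.xU_ne_one (show r < chevG2.nroots from hr) (sub_ne_zero.2 hne) ?_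
  rw [sub_eq_add_neg, ← Sys.xU_add, ← Sys.xU_inv, h, mul_inv_cancel]

theorem vec_inj : ∀ r s : Fin 12, SH.{u}.vec r 0 = SH.{u}.vec s 0 → SH.{u}.vec r 1 = SH.{u}.vec s 1 → r = s := by
  decide +kernel

theorem vec_combination_aux : ∀ r s t : Fin 12,
    ¬ (SH.{u}.vec t 0 = 3 * SH.{u}.vec r 0 + 2 * SH.{u}.vec s 0 ∧
      SH.{u}.vec t 1 = 3 * SH.{u}.vec r 1 + 2 * SH.{u}.vec s 1 ∧
      SH.{u}.vec r 1 % 2 = 0 ∧ SH.{u}.vec t 1 % 2 = 0 ∧ SH.{u}.vec s 1 % 2 = 1) ∨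
    (((r : ℕ) = 7 ∨ (r : ℕ) = 4) ∧ ((t : ℕ) = 11 ∨ (t : ℕ) = 0)) := by
  decide +kernel

theorem vec_combination (r s t : Fin 12) (h0 : SH.{u}.vec t 0 = 3 * SH.{u}.vec r 0 + 2 * SH.{u}.vec s 0)
    (h1 : SH.{u}.vec t 1 = 3 * SH.{u}.vec r 1 + 2 * SH.{u}.vec s 1) (hr : SH.{u}.vec r 1 % 2 = 0)
    (ht : SH.{u}.vec t 1 % 2 = 0) (hs : SH.{u}.vec s 1 % 2 = 1) :
    ((r : ℕ) = 7 ∨ (r : ℕ) = 4) ∧ ((t : ℕ) = 11 ∨ (t : ℕ) = 0) :=
  (vec_combination_aux.{u} r s t).resolve_left fun h => h ⟨h0, h1, hr, ht, hs⟩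

theorem weyl_linear {w : Equiv.Perm (Fin chevG2.nroots)} (hw : w ∈ SH.{u}.weyl) (j : ℕ) :
    ∃ g0 g1 : ℤ, ∀ r : Fin 12, (fun i : ℕ => if i = j then (1 : ℤ) else 0) 0 * SH.{u}.vec (w r : Fin 12) 0 +
      (fun i : ℕ => if i = j then (1 : ℤ) else 0) 1 * SH.{u}.vec (w r : Fin 12) 1 =
      g0 * SH.{u}.vec r 0 + g1 * SH.{u}.vec r 1 := by
  obtain ⟨L, hL, rfl⟩ := SH.{u}.exists_wprod hw
  obtain ⟨g, hg⟩ := SH.{u}.wprod_linear hL (fun i : ℕ => if i = j then (1 : ℤ) else 0)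
  refine ⟨g 0, g 1, fun r => ?_⟩
  have := hg r
  simp only [show chevG2.rank = 2 from rfl, Finset.sum_range_succ, Finset.sum_range_zero, zero_add] at this
  exact this

theorem weyl_shape {w : Equiv.Perm (Fin chevG2.nroots)} (hw : w ∈ SH.{u}.weyl) :
    (∀ i, i = 0 ∨ i = 1 → SH.{u}.vec (w (11 : Fin 12) : Fin 12) i =
      3 * SH.{u}.vec (w (7 : Fin 12) : Fin 12) i + 2 * SH.{u}.vec (w (6 : Fin 12) : Fin 12) i) ∧
    ((w (7 : Fin 12) : ℕ) = 7 → (w (11 : Fin 12) : ℕ) = 11 → w = 1) := by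
  obtain ⟨⟨a0, a1⟩, ⟨b0, b1⟩, ⟨c0, c1⟩, -⟩ := vec_vals.{u}
  have key : ∀ j, j = 0 ∨ j = 1 → ∃ g0 g1 : ℤ, ∀ r : Fin 12,
      SH.{u}.vec (w r : Fin 12) j = g0 * SH.{u}.vec r 0 + g1 * SH.{u}.vec r 1 := by
    intro j hj
    obtain ⟨g0, g1, hg⟩ := weyl_linear hw j
    refine ⟨g0, g1, fun r => ?_⟩
    rw [← hg r]
    rcases hj with rfl | rfl <;> simp
  refine ⟨?_, ?_⟩
  · intro i hi
    obtain ⟨g0, g1, hg⟩ := key i hi
    rw [hg 11, hg 7, hg 6]
    simp only [show ((11 : Fin 12) : ℕ) = 11 from rfl, show ((7 : Fin 12) : ℕ) = 7 from rfl,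
      show ((6 : Fin 12) : ℕ) = 6 from rfl, a0, a1, b0, b1, c0, c1]
    ring
  · intro h7 h11
    refine Equiv.ext fun r => ?_
    have hj : ∀ j, j = 0 ∨ j = 1 → SH.{u}.vec (w r : Fin 12) j = SH.{u}.vec (r : Fin 12) j := by
      intro j hj
      obtain ⟨g0, g1, hg⟩ := key j hj
      have e7 := hg 7
      have e11 := hg 11
      rw [h7] at e7
      rw [h11] at e11
      simp only [show ((11 : Fin 12) : ℕ) = 11 from rfl, show ((7 : Fin 12) : ℕ) = 7 from rfl,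
        a0, a1, c0, c1] at e7 e11
      rw [hg r]
      rcases hj with rfl | rfl
      · rw [a0] at e7; rw [c0] at e11
        obtain rfl : g0 = 1 := by linarith
        obtain rfl : g1 = 0 := by linarith
        ring
      · rw [a1] at e7; rw [c1] at e11
        obtain rfl : g0 = 0 := by linarith
        obtain rfl : g1 = 1 := by linarith
        ring
    exact vec_inj.{u} (w r) r (hj 0 (Or.inl rfl)) (hj 1 (Or.inr rfl))

theorem parity_of_pow {a b : ℤ} (h2 : (2 : F) ≠ 0) (h : ((-1 : Fˣ) ^ a) = (-1 : Fˣ) ^ b) :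
    a % 2 = b % 2 := by
  have hne : (-1 : Fˣ) ≠ 1 := fun e => h2 (by
    have := congrArg Units.val e
    simp only [Units.val_neg, Units.val_one] at this
    linear_combination (-1 : F) * this)
  rcases Int.even_or_odd a with ha | ha <;> rcases Int.even_or_odd b with hb | hb
  · rw [Int.even_iff.1 ha, Int.even_iff.1 hb]
  · rw [ha.neg_one_zpow, hb.neg_one_zpow] at h; exact absurd h.symm hne
  · rw [ha.neg_one_zpow, hb.neg_one_zpow] at h; exact absurd h hne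
  · rw [Int.odd_iff.1 ha, Int.odd_iff.1 hb]

theorem Phi_pSL_one (s : SpecialLinearGroup (Fin 2) F) :
    Phi (pSL s 1) = phi ra s ∧ Phi (pSL 1 s) = phi rc s := by
  constructor <;> rw [Phi_pSL, map_one] <;> simp

theorem nU_a_range : SH.nU 7 (1 : F) ∈ (Phi (F := F)).range := ⟨pSL wsl 1, by rw [(Phi_pSL_one wsl).1, phi_wsl]; rfl⟩

theorem nU_c_range : SH.nU 11 (1 : F) ∈ (Phi (F := F)).range := ⟨pSL 1 wsl, by rw [(Phi_pSL_one wsl).2, phi_wsl]; rfl⟩

theorem nU_conj_fix :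
    (∀ t : F, SH.nU 11 (1 : F) * SH.xU 7 t * (SH.nU 11 1)⁻¹ = SH.xU 7 t) ∧
    (∀ t : F, SH.nU 7 (1 : F) * SH.xU 11 t * (SH.nU 7 1)⁻¹ = SH.xU 11 t) ∧
    (∀ t : F, SH.nU 11 (1 : F) * SH.xU 4 t * (SH.nU 11 1)⁻¹ = SH.xU 4 t) ∧
    (∀ t : F, SH.nU 7 (1 : F) * SH.xU 0 t * (SH.nU 7 1)⁻¹ = SH.xU 0 t) := by
  refine ⟨fun t => ?_, fun t => ?_, fun t => ?_, fun t => ?_⟩
  · rw [show SH.nU 11 (1 : F) = phi rc wsl from (phi_wsl rc).symm, show SH.xU 7 t = phi ra (up t) from (phi_up ra t).symm,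
      ← phi_commute, mul_inv_cancel_right]
  · rw [show SH.nU 7 (1 : F) = phi ra wsl from (phi_wsl ra).symm, show SH.xU 11 t = phi rc (up t) from (phi_up rc t).symm,
      phi_commute, mul_inv_cancel_right]
  · rw [show SH.nU 11 (1 : F) = phi rc wsl from (phi_wsl rc).symm,
      show SH.xU 4 t = phi ra (lo t) by rw [phi_lo]; exact congrArg (fun r => SH.xU r t) neg_vals.1.symm,
      ← phi_commute, mul_inv_cancel_right]
  · rw [show SH.nU 7 (1 : F) = phi ra wsl from (phi_wsl ra).symm,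
      show SH.xU 0 t = phi rc (lo t) by rw [phi_lo]; exact congrArg (fun r => SH.xU r t) neg_vals.2.symm,
      phi_commute, mul_inv_cancel_right]

theorem neg_vals' : chevG2.neg 4 = 7 ∧ chevG2.neg 0 = 11 := by decide +kernel

theorem diag_range {d : GL chevG2.Idx F} (hd : d ∈ chevG2.diagonalSubgroup F) : d ∈ (Phi (F := F)).range := by
  obtain ⟨z, rfl⟩ := SH.{u}.exists_dg hd
  obtain ⟨p, hp⟩ := tor_eq_Phi (z 0) (z 1)
  exact ⟨p, hp.trans (tor_eq z).symm⟩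

theorem mono_range (h2 : (2 : F) ≠ 0) {n : GL chevG2.Idx F} (hn : n ∈ chevG2.monomialSubgroup F)
    (hc : h₀ * n = n * h₀) : n ∈ (Phi (F := F)).range := by
  obtain ⟨w, hwW, hw⟩ := SH.{u}.exists_acts hn
  have hpar : ∀ r : Fin 12, SH.{u}.vec (w r : Fin 12) 1 % 2 = SH.{u}.vec r 1 % 2 := by
    intro r
    obtain ⟨c, hc'⟩ := hw r
    have h1 : h₀ * (n * SH.xU r (1 : F) * n⁻¹) * h₀⁻¹ = n * (h₀ * SH.xU r (1 : F) * h₀⁻¹) * n⁻¹ := by
      calc h₀ * (n * SH.xU r (1 : F) * n⁻¹) * h₀⁻¹ = (h₀ * n) * SH.xU r (1 : F) * (h₀ * n)⁻¹ := by group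
        _ = (n * h₀) * SH.xU r (1 : F) * (n * h₀)⁻¹ := by rw [hc]
        _ = _ := by group
    rw [hc', h₀_conj_xU r.2, hc', h₀_conj_xU (w r).2] at h1
    have h3 := xU_inj (w r).2 h1
    refine parity_of_pow h2 (Units.ext ?_)
    rw [mul_one, mul_one, mul_comm] at h3
    exact mul_left_cancel₀ c.ne_zero h3
  obtain ⟨hlin, hfix⟩ := weyl_shape hwW
  obtain ⟨h7, h11⟩ := vec_combination _ _ _ (hlin 0 (Or.inl rfl)) (hlin 1 (Or.inr rfl))
    (by rw [hpar]; simp only [show ((7 : Fin 12) : ℕ) = 7 from rfl, vec_vals.1.2]; rfl)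
    (by rw [hpar]; simp only [show ((11 : Fin 12) : ℕ) = 11 from rfl, vec_vals.2.2.1.2]; rfl)
    (by rw [hpar]; simp only [show ((6 : Fin 12) : ℕ) = 6 from rfl, vec_vals.2.1.2]; rfl)
  obtain ⟨ca, hca⟩ := hw (7 : Fin 12)
  obtain ⟨cc, hcc⟩ := hw (11 : Fin 12)
  set ea : GL chevG2.Idx F := if (w (7 : Fin 12) : ℕ) = 7 then 1 else SH.nU 7 1 with hea
  set ec : GL chevG2.Idx F := if (w (11 : Fin 12) : ℕ) = 11 then 1 else SH.nU 11 1 with hec
  have heaR : ea ∈ (Phi (F := F)).range := by rw [hea]; split_ifs; exacts [one_mem _, nU_a_range]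
  have hecR : ec ∈ (Phi (F := F)).range := by rw [hec]; split_ifs; exacts [one_mem _, nU_c_range]
  have heaM : ea ∈ chevG2.monomialSubgroup F := by
    rw [hea]; split_ifs
    exacts [one_mem _, SH.{u}.nU_mem_mono (show 7 < chevG2.nroots by decide) (1 : Fˣ)]
  have hecM : ec ∈ chevG2.monomialSubgroup F := by
    rw [hec]; split_ifs
    exacts [one_mem _, SH.{u}.nU_mem_mono (show 11 < chevG2.nroots by decide) (1 : Fˣ)]
  have hm : ea * ec * n ∈ chevG2.monomialSubgroup F := mul_mem (mul_mem heaM hecM) hn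
  obtain ⟨v, hvW, hv⟩ := SH.{u}.exists_acts hm
  suffices hv1 : v = 1 by
    have hd := SH.{u}.mem_diag_of_pos hm hv fun r hr => by rw [hv1]; exact hr
    have := mul_mem (mul_mem (inv_mem hecR) (inv_mem heaR)) (diag_range hd)
    rwa [show ec⁻¹ * ea⁻¹ * (ea * ec * n) = n by group] at this
  obtain ⟨f11, f7, f4, f0⟩ := nU_conj_fix (F := F)
  have wsl_lo : (wsl : SpecialLinearGroup (Fin 2) F) = lo (-1) * up 1 * lo (-1) := by
    refine sl_ext ?_
    show !![(0:F), 1; -1, 0] = !![1, 0; -1, 1] * !![1, 1; 0, 1] * !![1, 0; -1, 1]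
    simp [Matrix.mul_fin_two]
  have conj7 : ∀ t : F, ∃ e : F, (ea * ec * n) * SH.xU 7 t * (ea * ec * n)⁻¹ = SH.xU 7 e := by
    intro t
    have e1 : ∀ t, ec * SH.xU (w (7 : Fin 12) : ℕ) t * ec⁻¹ = SH.xU (w (7 : Fin 12) : ℕ) t := by
      intro t
      rw [hec]; split_ifs
      · group
      · rcases h7 with e | e <;> rw [e]
        exacts [f11 t, f4 t]
    rw [show (ea * ec * n) * SH.xU 7 t * (ea * ec * n)⁻¹ = ea * (ec * (n * SH.xU 7 t * n⁻¹) * ec⁻¹) * ea⁻¹ by group,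
      show n * SH.xU 7 t * n⁻¹ = SH.xU (w (7 : Fin 12) : ℕ) ((ca : F) * t) from hca t, e1, hea]
    rcases h7 with e | e
    · rw [if_pos e, e]; exact ⟨(ca : F) * t, by group⟩
    · rw [if_neg (by rw [e]; norm_num), e]
      have := SH.nU_conj_self 4 (by decide) (-1 : Fˣ) ((ca : F) * t)
      refine ⟨-((ca : F) * t), ?_⟩
      rw [show SH.nU 7 (1 : F) = SH.nU 4 ((-1 : Fˣ) : F) by
        rw [show SH.nU 7 (1 : F) = phi ra wsl from (phi_wsl ra).symm, wsl_lo, map_mul, map_mul, phi_up, phi_lo,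
          Sys.nU_eq, show ((ra : Fin 12) : ℕ) = 7 from rfl, neg_vals.1, neg_vals'.1]
        simp, this, neg_vals'.1]
      simp
  have conj11 : ∀ t : F, ∃ e : F, (ea * ec * n) * SH.xU 11 t * (ea * ec * n)⁻¹ = SH.xU 11 e := by
    intro t
    have e1 : ∀ t, ea * SH.xU 11 t * ea⁻¹ = SH.xU 11 t := by
      intro t
      rw [hea]; split_ifs
      · group
      · exact f7 t
    rw [show (ea * ec * n) * SH.xU 11 t * (ea * ec * n)⁻¹ = ea * (ec * (n * SH.xU 11 t * n⁻¹) * ec⁻¹) * ea⁻¹ by group,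
      show n * SH.xU 11 t * n⁻¹ = SH.xU (w (11 : Fin 12) : ℕ) ((cc : F) * t) from hcc t, hec]
    rcases h11 with e | e
    · rw [if_pos e, e]
      exact ⟨(cc : F) * t, by rw [show (1 : GL chevG2.Idx F) * SH.xU 11 ((cc : F) * t) * 1⁻¹ = SH.xU 11 ((cc : F) * t) by group, e1]⟩
    · rw [if_neg (by rw [e]; norm_num), e]
      have := SH.nU_conj_self 0 (by decide) (-1 : Fˣ) ((cc : F) * t)
      refine ⟨-((cc : F) * t), ?_⟩
      rw [show SH.nU 11 (1 : F) = SH.nU 0 ((-1 : Fˣ) : F) by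
        rw [show SH.nU 11 (1 : F) = phi rc wsl from (phi_wsl rc).symm, wsl_lo, map_mul, map_mul, phi_up, phi_lo,
          Sys.nU_eq, show ((rc : Fin 12) : ℕ) = 11 from rfl, neg_vals.2, neg_vals'.2]
        simp, this, neg_vals'.2]
      simpa using e1 (-((cc : F) * t))
  have root_of : ∀ (r : Fin 12), (∀ t : F, ∃ e : F,
      (ea * ec * n) * SH.xU (r : ℕ) t * (ea * ec * n)⁻¹ = SH.xU (r : ℕ) e) → (v r : ℕ) = r := by
    intro r hx
    obtain ⟨d, hd⟩ := hv r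
    obtain ⟨e, he⟩ := hx ((d⁻¹ : Fˣ) : F)
    rw [hd, Units.mul_inv] at he
    exact SH.{u}.root_eq_of_xU (v r).2 r.2 he
  exact (weyl_shape hvW).2 (root_of 7 conj7) (root_of 11 conj11)

theorem conj_prodFrom (z : ℕ → Fˣ) (t : ℕ → F) : ∀ {k : ℕ}, k ≤ 12 →
    SH.dg z * SH.prodFrom t k * (SH.dg z)⁻¹ = SH.prodFrom (fun r => (SH.chi z r : F) * t r) k := by
  intro k
  induction hd : 12 - k generalizing k with
  | zero =>
    intro hk
    have e : ∀ s : ℕ → F, SH.prodFrom s k = 1 := fun s => by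
      show SH.wU ((List.range' k (12 - k)).map fun r => (r, s r)) = 1
      rw [hd]; simp [Sys.wU]
    rw [e, e, mul_one, mul_inv_cancel]
  | succ d ih =>
    intro hk
    have hk' : k < chevG2.nroots := by rw [show chevG2.nroots = 12 from rfl]; omega
    rw [Sys.prodFrom_succ SH _ hk', Sys.prodFrom_succ SH _ hk', ← ih (k := k + 1) (by omega) (by omega),
      ← SH.dg_conj_xU z hk']
    group

theorem pos_range (h2 : (2 : F) ≠ 0) {u : GL chevG2.Idx F} (hu : u ∈ chevG2.posUnipotent F)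
    (hc : h₀ * u = u * h₀) : u ∈ (Phi (F := F)).range := by
  rw [SH.{u}.posUnipotent_eq] at hu
  obtain ⟨t, -, rfl⟩ := SH.{u}.exists_prodFrom le_rfl hu
  have h := conj_prodFrom (zz (1 : Fˣ) (-1)) t (k := chevG2.nroots / 2) (by decide)
  rw [show SH.dg (zz (1 : Fˣ) (-1)) = h₀ from rfl, hc, mul_inv_cancel_right] at h
  have hz : ∀ r, r = 6 ∨ r = 8 ∨ r = 9 ∨ r = 10 → t r = 0 := by
    intro r hr
    have hr12 : r < 12 := by omega
    have e := SH.{u}.prodFrom_inj le_rfl h r (by rw [show chevG2.nroots / 2 = 6 from rfl]; omega) hr12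
    rw [chi_h₀ hr12] at e
    obtain ⟨-, ⟨-, b1⟩, -, -, -, ⟨-, d1⟩, ⟨-, e1⟩, ⟨-, f1⟩⟩ := vec_vals.{u}
    have : SH.{u}.vec r 1 = 1 := by rcases hr with rfl | rfl | rfl | rfl <;> assumption
    rw [this, zpow_one, Units.val_neg, Units.val_one] at e
    have : (2 : F) * t r = 0 := by linear_combination e
    exact (mul_eq_zero.1 this).resolve_left h2
  show SH.wU ((List.range' 6 6).map fun r => (r, t r)) ∈ (Phi (F := F)).range
  have e : SH.wU ((List.range' 6 6).map fun r => (r, t r)) = SH.xU 7 (t 7) * SH.xU 11 (t 11) := by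
    simp [Sys.wU, List.range'_succ, hz 6 (Or.inl rfl), hz 8 (by tauto), hz 9 (by tauto), hz 10 (by tauto), Sys.xU_zero]
  rw [e]
  exact mul_mem (MonoidHom.mem_range.2 ⟨pSL (up (t 7)) 1, by rw [(Phi_pSL_one _).1, phi_up]; rfl⟩)
    (MonoidHom.mem_range.2 ⟨pSL 1 (up (t 11)), by rw [(Phi_pSL_one _).2, phi_up]; rfl⟩)

theorem centralizer_range (h2 : (2 : F) ≠ 0) {g : GL chevG2.Idx F} (hg : g ∈ chevG2.group F)
    (hc : h₀ * g = g * h₀) : g ∈ (Phi (F := F)).range := by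
  obtain ⟨b, hb, n, hn, w, hwW, hw, v, hv, rfl⟩ := SH.{u}.exists_normal_form hg
  obtain ⟨u, hu, d, hd, rfl⟩ := SH.{u}.mem_borel_iff.1 hb
  have hh : (h₀ : GL chevG2.Idx F) ∈ chevG2.diagonalSubgroup F := tor_mem_diag _
  set e := h₀ * n * h₀⁻¹ * n⁻¹ with he
  have hed : e ∈ chevG2.diagonalSubgroup F := by
    have h3 := SH.{u}.mono_conj_diag hn (inv_mem hh)
    have := mul_mem hh h3
    rwa [show h₀ * (n * h₀⁻¹ * n⁻¹) = e by rw [he]; group] at this
  have hdh : h₀ * d * h₀⁻¹ = d := by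
    obtain ⟨z, rfl⟩ := SH.{u}.exists_dg hd
    rw [h₀, tor, ← Sys.dg_mul, mul_comm, Sys.dg_mul, mul_inv_cancel_right]
  have hu' : h₀ * u * h₀⁻¹ ∈ chevG2.posUnipotent F := SH.{u}.diag_conj_pos hh hu
  have hv' : h₀ * v * h₀⁻¹ ∈ SH.uminus F w := by
    have : SH.uminus F w ≤ (SH.uminus F w).comap (MulAut.conj h₀).toMonoidHom :=
      SH.{u}.genBy_le fun r h1 h3 h4 t => by
        show h₀ * SH.xU r t * h₀⁻¹ ∈ SH.uminus F w
        rw [h₀_conj_xU h3]
        exact SH.{u}.xU_mem_genBy h1 h3 h4 _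
    exact this hv
  have hcg : h₀ * (u * d * n * v) * h₀⁻¹ = u * d * n * v := by rw [hc, mul_inv_cancel_right]
  have eq1 : (h₀ * u * h₀⁻¹ * (d * e)) * n * (h₀ * v * h₀⁻¹) = u * d * n * v := by
    conv_rhs => rw [← hcg]
    rw [show h₀ * (u * d * n * v) * h₀⁻¹ = (h₀ * u * h₀⁻¹) * (h₀ * d * h₀⁻¹) * (h₀ * n * h₀⁻¹) * (h₀ * v * h₀⁻¹) by
      group, hdh, he]
    group
  obtain ⟨e1, e2⟩ := SH.{u}.normal_form_unique hw
    (mul_mem (Subgroup.mem_sup_left hu') (Subgroup.mem_sup_right (mul_mem hd hed)))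
    (mul_mem (Subgroup.mem_sup_left hu) (Subgroup.mem_sup_right hd)) hv' hv eq1
  have h3 : u⁻¹ * (h₀ * u * h₀⁻¹) ∈ chevG2.posUnipotent F ⊓ chevG2.diagonalSubgroup F := by
    refine Subgroup.mem_inf.2 ⟨mul_mem (inv_mem hu) hu', ?_⟩
    rw [show u⁻¹ * (h₀ * u * h₀⁻¹) = u⁻¹ * (h₀ * u * h₀⁻¹ * (d * e)) * (d * e)⁻¹ by group, e1,
      show u⁻¹ * (u * d) = d by group]
    exact mul_mem hd (inv_mem (mul_mem hd hed))
  rw [SH.{u}.pos_inf_diag, Subgroup.mem_bot, inv_mul_eq_one] at h3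
  have he1 : e = 1 := by
    rw [← h3] at e1
    exact mul_left_cancel (a := d) ((mul_left_cancel e1).trans (mul_one d).symm)
  have hnc : h₀ * n = n * h₀ := by
    rw [he] at he1
    exact mul_inv_eq_iff_eq_mul.1 (mul_inv_eq_one.1 he1)
  have huc : h₀ * u = u * h₀ := by
    calc h₀ * u = (h₀ * u * h₀⁻¹) * h₀ := by group
      _ = u * h₀ := by rw [← h3]
  have hvc : h₀ * v = v * h₀ := by
    calc h₀ * v = (h₀ * v * h₀⁻¹) * h₀ := by group
      _ = v * h₀ := by rw [e2]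
  exact mul_mem (mul_mem (mul_mem (pos_range h2 hu huc) (diag_range hd)) (mono_range h2 hn hnc))
    (pos_range h2 (SH.{u}.genBy_le_pos _ hv) hvc)

/-! ### Classes -/

/-- The companion matrix of `X² - z`. -/
noncomputable def cz (z : Fˣ) : GL (Fin 2) F :=
  GeneralLinearGroup.mkOfDetNeZero !![0, (z : F); 1, 0] (by simp [Matrix.det_fin_two])

theorem coe_cz (z : Fˣ) : (cz z : Matrix (Fin 2) (Fin 2) F) = !![0, (z : F); 1, 0] := rfl

theorem det_cz (z : Fˣ) : GeneralLinearGroup.det (cz z) = -z := Units.ext (by simp [coe_cz, Matrix.det_fin_two])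

theorem exists_norm [Finite F] (h2 : (2 : F) ≠ 0) {z : F} (hz : z ≠ 0) (c : F) : ∃ u y : F, u ^ 2 - z * y ^ 2 = c := by
  haveI : Fintype F := Fintype.ofFinite F
  have hodd : Fintype.card F % 2 = 1 := FiniteField.odd_card_of_char_ne_two (fun h => h2 (by
    haveI : CharP F 2 := h ▸ ringChar.charP F
    exact CharTwo.two_eq_zero))
  obtain ⟨a, b, e⟩ := FiniteField.exists_root_sum_quadratic (f := (Polynomial.X ^ 2 - Polynomial.C c : Polynomial F))
    (g := Polynomial.C (-z) * Polynomial.X ^ 2) (Polynomial.degree_X_pow_sub_C (by norm_num) c)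
    (Polynomial.degree_C_mul_X_pow 2 (neg_ne_zero.2 hz)) hodd
  refine ⟨a, b, ?_⟩
  simp at e
  linear_combination e

theorem square_scalar [Finite F] (h2 : (2 : F) ≠ 0) {A : GL (Fin 2) F} {z : Fˣ} (h : A * A = sc z) :
    (∃ a : Fˣ, A = sc a) ∨ (GeneralLinearGroup.det A = -z ∧
      ∃ s : SpecialLinearGroup (Fin 2) F, SpecialLinearGroup.toGL s * cz z * (SpecialLinearGroup.toGL s)⁻¹ = A) := by
  set a := (A : Matrix (Fin 2) (Fin 2) F) 0 0 with ha
  set b := (A : Matrix (Fin 2) (Fin 2) F) 0 1 with hb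
  set c := (A : Matrix (Fin 2) (Fin 2) F) 1 0 with hc
  set d := (A : Matrix (Fin 2) (Fin 2) F) 1 1 with hd
  have e := congrArg (fun x : GL (Fin 2) F => (x : Matrix (Fin 2) (Fin 2) F)) h
  simp only [Units.val_mul, sc, coe_dg2] at e
  have e00 := congrFun (congrFun e 0) 0
  have e01 := congrFun (congrFun e 0) 1
  have e10 := congrFun (congrFun e 1) 0
  have e11 := congrFun (congrFun e 1) 1
  simp [Matrix.mul_apply, Fin.sum_univ_two, ← ha, ← hb, ← hc, ← hd] at e00 e01 e10 e11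
  by_cases hs : a + d = 0
  swap
  · left
    have hb0 : b = 0 := (mul_eq_zero.1 (show b * (a + d) = 0 by linear_combination e01)).resolve_right hs
    have hc0 : c = 0 := (mul_eq_zero.1 (show c * (a + d) = 0 by linear_combination e10)).resolve_right hs
    have had : a - d = 0 :=
      (mul_eq_zero.1 (show (a - d) * (a + d) = 0 by linear_combination e00 - e11)).resolve_right hs
    have ha0 : a ≠ 0 := fun h0 => hs (by linear_combination (2 : F) * h0 - had)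
    refine ⟨Units.mk0 a ha0, Units.ext ?_⟩
    rw [sc, coe_dg2]
    ext i j
    fin_cases i <;> fin_cases j <;> simp [← ha, ← hb, ← hc, ← hd, hb0, hc0]
    linear_combination (-1 : F) * had
  right
  have hd' : d = -a := by linear_combination hs
  refine ⟨Units.ext ?_, ?_⟩
  · rw [GeneralLinearGroup.val_det_apply, Matrix.det_fin_two, ← ha, ← hb, ← hc, ← hd, hd', Units.val_neg]
    linear_combination (-1 : F) * e00
  obtain ⟨x, y, hxy⟩ : ∃ x y : F, c * x ^ 2 - 2 * a * x * y - b * y ^ 2 = 1 := by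
    by_cases hc0 : c = 0
    · by_cases hb0 : b = 0
      · have ha0 : a ≠ 0 := fun h0 => z.ne_zero (by rw [← e00, h0, hb0]; ring)
        refine ⟨1, -(2 * a)⁻¹, ?_⟩
        rw [hc0, hb0]
        field_simp
        ring
      · obtain ⟨u, x, hu⟩ := exists_norm h2 z.ne_zero (-b)
        refine ⟨x, (u - a * x) / b, ?_⟩
        rw [hc0]
        field_simp
        rw [hc0] at e00
        linear_combination (-1 : F) * hu + x ^ 2 * e00
    · obtain ⟨u, y, hu⟩ := exists_norm h2 z.ne_zero c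
      refine ⟨(u + a * y) / c, y, ?_⟩
      field_simp
      linear_combination hu - y ^ 2 * e00
  let s : SpecialLinearGroup (Fin 2) F := ⟨!![x, a * x + b * y; y, c * x + d * y], by
    rw [Matrix.det_fin_two_of, hd']; linear_combination hxy⟩
  refine ⟨s, ?_⟩
  rw [mul_inv_eq_iff_eq_mul]
  refine Units.ext ?_
  rw [Units.val_mul, Units.val_mul, coe_cz]
  show !![x, a * x + b * y; y, c * x + d * y] * !![0, (z : F); 1, 0] =
    (A : Matrix (Fin 2) (Fin 2) F) * !![x, a * x + b * y; y, c * x + d * y]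
  ext i j
  fin_cases i <;> fin_cases j <;> simp [Matrix.mul_apply, Fin.sum_univ_two, ← ha, ← hb, ← hc, ← hd]
  · linear_combination (-x) * e00 - y * e01
  · linear_combination (-y) * e11 - x * e10

/-- The element `Φ(C_z, C_z)`. -/
noncomputable def Y (z : Fˣ) : GL chevG2.Idx F := Phi ⟨(cz z, cz z), mem_pairs.2 rfl⟩

/-- Conjugacy inside the group. -/
def GConj (x y : GL chevG2.Idx F) : Prop := ∃ g ∈ chevG2.group F, g * x * g⁻¹ = y

theorem GConj.symm {x y : GL chevG2.Idx F} (h : GConj x y) : GConj y x := by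
  obtain ⟨g, hg, rfl⟩ := h
  exact ⟨g⁻¹, inv_mem hg, by group⟩

theorem GConj.trans {x y w : GL chevG2.Idx F} (h : GConj x y) (h' : GConj y w) : GConj x w := by
  obtain ⟨g, hg, rfl⟩ := h
  obtain ⟨g', hg', rfl⟩ := h'
  exact ⟨g' * g, mul_mem hg' hg, by group⟩

theorem conj_Y_of_pair [Finite F] (h2 : (2 : F) ≠ 0) {p : pairs F} {z : Fˣ}
    (ha : p.1.1 * p.1.1 = sc z) (hb : p.1.2 * p.1.2 = sc z)
    (hna : ∀ a, p.1.1 ≠ sc a) (hnb : ∀ a, p.1.2 ≠ sc a) : GConj (Y z) (Phi p) := by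
  obtain ⟨-, s, hs⟩ := (square_scalar h2 ha).resolve_left fun ⟨a, e⟩ => hna a e
  obtain ⟨-, s', hs'⟩ := (square_scalar h2 hb).resolve_left fun ⟨a, e⟩ => hnb a e
  refine ⟨Phi (pSL s s'), Phi_mem _, ?_⟩
  rw [Y, ← map_inv, ← map_mul, ← map_mul]
  exact congrArg Phi (Subtype.ext (Prod.ext hs hs'))

theorem wordVal_app (a b : F) (L L' : List (ℕ × Poly)) :
    wordVal a b (L ++ L') = wordVal a b L ++ wordVal a b L' := List.map_append

/-- The words of the check. -/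
def nPoly (r : ℕ) (c : ℤ) : List (ℕ × Poly) := [(r, [(c, 0, 0)]), (11 - r, [(-c, 0, 0)]), (r, [(c, 0, 0)])]

/-- The word of a torus involution. -/
def hPoly (r : ℕ) : List (ℕ × Poly) := nPoly r (-1) ++ nPoly r (-1)

/-- The word of the element inverting the torus. -/
def invPoly : List (ℕ × Poly) := hPoly 6 ++ hPoly 7 ++ nPoly 7 (-1) ++ nPoly 11 (-1)

theorem inv_check : sameWord DataG2.tbl (nPoly 6 1 ++ invPoly ++ nPoly 6 (-1)) invPoly = true := by
  decide +kernel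

theorem neg6 : chevG2.neg 6 = 5 := by decide +kernel

theorem cr6 : cr chevG2 6 0 = -1 ∧ cr chevG2 6 1 = 2 := by decide +kernel

theorem wU_nPoly {r : ℕ} (hr : chevG2.neg r = 11 - r) {c : ℤ} (hc : c = 1 ∨ c = -1) :
    SH.wU (wordVal (0 : F) 0 (nPoly r c)) = SH.nU r (c : F) := by
  rw [Sys.nU_eq, hr]
  rcases hc with rfl | rfl <;> simp [nPoly, Sys.wU, wordVal, pev, mul_assoc]

theorem spart_J : spart (cz (1 : Fˣ)) = (wsl : SpecialLinearGroup (Fin 2) F)⁻¹ ∧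
    GeneralLinearGroup.det (cz (1 : Fˣ)) = -1 := by
  obtain ⟨h1, h2⟩ := spart_unique (g := cz (1 : Fˣ)) (δ := -1) (s := (wsl : SpecialLinearGroup (Fin 2) F)⁻¹)
    (Units.ext (by
      show !![((-1 : Fˣ) : F), 0; 0, 1] * adjugate !![(0 : F), 1; -1, 0] = !![0, ((1 : Fˣ) : F); 1, 0]
      simp [Matrix.adjugate_fin_two_of, Matrix.mul_fin_two]))
  exact ⟨h2, h1⟩

theorem Y_one_eq : (Y (1 : Fˣ) : GL chevG2.Idx F) = SH.wU (wordVal (0 : F) 0 invPoly) := by
  obtain ⟨n7, n11⟩ := neg_vals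
  rw [invPoly, hPoly, hPoly]
  simp only [wordVal_app, Sys.wU_append]
  rw [wU_nPoly (r := 6) neg6 (Or.inr rfl), wU_nPoly (r := 7) n7 (Or.inr rfl), wU_nPoly (r := 11) n11 (Or.inr rfl)]
  rw [Y, Phi_apply]
  simp only [spart_J.1, spart_J.2, map_inv, phi_wsl]
  have hh : ∀ r, r < chevG2.nroots → SH.nU r ((-1 : ℤ) : F) * SH.nU r ((-1 : ℤ) : F) = SH.dg (hz chevG2 r (-1)) :=
    fun r hr => by rw [← SH.hU_eq_dg hr, Sys.hU_eq]; simp
  rw [hh 6 (by decide), hh 7 (by decide), ← Sys.dg_mul, td, tor]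
  push_cast
  rw [Sys.nU_neg, Sys.nU_neg]
  congr 2
  obtain ⟨c1, c2, -, -⟩ := cr_vals
  obtain ⟨d1, d2⟩ := cr6
  refine tor_congr ?_ ?_ <;> simp [zz, hz_zero, hz_one, c1, c2, d1, d2, zpow_ofNat, _root_.zpow_neg] <;> simp [pow_succ]

theorem nb_tor (α β : Fˣ) :
    SH.nU 6 (1 : F) * tor (zz α β) = tor (zz (α * β) β⁻¹) * SH.nU 6 1 := by
  have h := SH.{u}.nU_dg (F := F) (q := 1) (by decide) (zz α β)
  rw [simple_vals.2] at h
  rw [tor, h]
  congr 1
  have hp : SH.{u}.pi 1 7 = 8 ∧ SH.{u}.pi 1 6 = 5 := by decide +kernel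
  have hv5 : SH.{u}.vec 5 0 = 0 ∧ SH.{u}.vec 5 1 = -1 := by decide +kernel
  obtain ⟨-, -, -, -, -, ⟨d0, d1⟩, -, -⟩ := vec_vals.{u}
  refine tor_congr ?_ ?_
  · simp only [Sys.tw, simple_vals.1, hp.1]
    rw [chi_eq _ (by norm_num), d0, d1]; simp [zz]
  · simp only [Sys.tw, simple_vals.2, hp.2]
    rw [chi_eq _ (by norm_num), hv5.1, hv5.2]; simp [zz]

theorem nb_Y_one : SH.nU 6 (1 : F) * Y 1 * (SH.nU 6 1)⁻¹ = Y 1 := by
  rw [Y_one_eq]
  have h : SH.wU (wordVal (0 : F) 0 (nPoly 6 1 ++ invPoly ++ nPoly 6 (-1))) = SH.wU (wordVal (0 : F) 0 invPoly) := by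
    refine Units.ext ?_
    rw [Sys.coe_wU, Sys.coe_wU]
    exact sameWord_sound DataG2.valid.linked (Tbl.rootsP DataG2.valid.roots) (Tbl.chainP DataG2.valid.chain) 0 0
      inv_check (by decide +kernel) (by decide +kernel)
  rw [wordVal_app, wordVal_app, Sys.wU_append, Sys.wU_append, wU_nPoly neg6 (Or.inl rfl),
    wU_nPoly neg6 (Or.inr rfl)] at h
  simpa [Sys.nU_neg] using h

theorem sq_cz (z : Fˣ) : cz z * cz z = sc z :=
  Units.ext (by simp [coe_cz, sc, coe_dg2, Matrix.mul_fin_two])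

theorem Y_conj_h₀ [Finite F] (h2 : (2 : F) ≠ 0) (z : Fˣ) : GConj (Y z) h₀ := by
  have hnb : SH.nU 6 (1 : F) ∈ chevG2.group F := SH.{u}.wU_mem_group _
  -- `Y z` is conjugate to `Φ(C₁, diag(z, 1/z) C₁)`
  have hYz : Y z = tor (zz z z⁻¹) * Y 1 := by
    rw [show tor (zz z z⁻¹) = Phi (⟨(dg2 z 1, dg2 z 1), mem_pairs.2 rfl⟩ : pairs F) by
      rw [Phi_diag rfl]; exact tor_congr (by simp [zz]) (by simp [zz]), Y, Y, ← map_mul]
    refine congrArg Phi (Subtype.ext (Prod.ext ?_ ?_)) <;>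
      exact Units.ext (by simp [coe_cz, coe_dg2, Matrix.mul_fin_two])
  let q : pairs F := ⟨(cz 1, dg2 z z⁻¹ * cz 1), mem_pairs.2 (by rw [map_mul, det_dg2, mul_inv_cancel, one_mul])⟩
  have h1 : GConj (Y z) (Phi q) := by
    refine ⟨_, hnb, ?_⟩
    rw [hYz, ← mul_assoc, nb_tor, mul_assoc, mul_assoc, ← mul_assoc (SH.nU 6 1), nb_Y_one,
      show Phi q = Phi ((⟨(dg2 1 1, dg2 z z⁻¹), mem_pairs.2 (by rw [det_dg2, det_dg2]; simp)⟩ : pairs F) *
        ⟨(cz 1, cz 1), mem_pairs.2 rfl⟩) from congrArg Phi (Subtype.ext (Prod.ext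
          ((show dg2 (1 : Fˣ) 1 = 1 from Units.ext (by simp [coe_dg2, Matrix.one_fin_two])).symm ▸ (one_mul (cz 1)).symm) rfl)),
      map_mul, Phi_diag (by simp), Y]
    congr 1
    exact tor_congr (by simp [zz]) (by simp [zz])
  have hns : ∀ a : Fˣ, cz (1 : Fˣ) ≠ sc a := fun a e => by
    have := congrArg (fun x : GL (Fin 2) F => (x : Matrix (Fin 2) (Fin 2) F) 1 0) e
    simp [coe_cz, sc, coe_dg2] at this
  have h3 : GConj (Y 1) (Phi q) := by
    refine conj_Y_of_pair h2 (sq_cz 1) ?_ hns fun a e => ?_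
    · exact Units.ext (by simp [q, coe_cz, coe_dg2, sc, Matrix.mul_fin_two, Matrix.one_fin_two])
    · have := congrArg (fun x : GL (Fin 2) F => (x : Matrix (Fin 2) (Fin 2) F) 1 0) e
      simp [q, coe_cz, sc, coe_dg2, Matrix.mul_fin_two] at this
  let dp : pairs F := ⟨(dg2 1 (-1), dg2 1 (-1)), mem_pairs.2 rfl⟩
  have hnd : ∀ a : Fˣ, dg2 (1 : Fˣ) (-1) ≠ sc a := fun a e => h2 (by
    have e0 := congrArg (fun x : GL (Fin 2) F => (x : Matrix (Fin 2) (Fin 2) F) 0 0) e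
    have e1 := congrArg (fun x : GL (Fin 2) F => (x : Matrix (Fin 2) (Fin 2) F) 1 1) e
    simp [sc, coe_dg2] at e0 e1
    linear_combination e0 - e1)
  have h4 : GConj (Y 1) (Phi dp) := by
    refine conj_Y_of_pair h2 ?_ ?_ hnd hnd <;>
      exact Units.ext (by simp [dp, coe_dg2, sc, Matrix.mul_fin_two])
  have h5 : GConj (Phi dp) h₀ := by
    refine ⟨_, hnb, ?_⟩
    rw [Phi_diag rfl, nb_tor, mul_inv_cancel_right, h₀]
    exact tor_congr (by simp [zz]) (by simp [zz])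
  exact ((h1.trans h3.symm).trans h4).trans h5

theorem involution_of_range [Finite F] (h2 : (2 : F) ≠ 0) {p : pairs F}
    (h1 : Phi p ≠ 1) (hsq : Phi p * Phi p = 1) : GConj (Phi p) h₀ := by
  rw [← map_mul] at hsq
  obtain ⟨z, hz⟩ := Phi_ker.1 hsq
  have ha : p.1.1 * p.1.1 = sc z := congrArg Prod.fst hz
  have hb : p.1.2 * p.1.2 = sc z := congrArg Prod.snd hz
  have hdet : GeneralLinearGroup.det p.1.1 = GeneralLinearGroup.det p.1.2 := mem_pairs.1 p.2
  have hsc : ∀ {A B : GL (Fin 2) F} {a : Fˣ}, A = sc a → A * A = sc z → B * B = sc z →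
      GeneralLinearGroup.det A = GeneralLinearGroup.det B → ∃ b : Fˣ, B = sc b ∧ (b = a ∨ b = -a) := by
    intro A B a hA hA2 hB hd
    have hz' : z = a * a := by
      have e := congrArg (fun x : GL (Fin 2) F => (x : Matrix (Fin 2) (Fin 2) F) 0 0) hA2
      simp [hA, sc, coe_dg2, Matrix.mul_fin_two] at e
      exact Units.ext (by rw [Units.val_mul]; exact e.symm)
    rcases square_scalar h2 hB with ⟨b, rfl⟩ | ⟨hB', -⟩
    · refine ⟨b, rfl, ?_⟩
      rw [hA, sc, sc, det_dg2, det_dg2] at hd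
      rcases mul_self_eq_mul_self_iff.1 (congrArg Units.val hd) with e | e
      · exact Or.inl (Units.ext e.symm)
      · exact Or.inr (Units.ext (by rw [Units.val_neg, e]; ring))
    · exfalso
      rw [hA, sc, det_dg2, hB', hz'] at hd
      have := congrArg Units.val hd
      rw [Units.val_neg, Units.val_mul] at this
      exact h2 ((mul_eq_zero.1 (show (2 : F) * ((a : F) * a) = 0 by linear_combination this)).resolve_right
        (mul_ne_zero a.ne_zero a.ne_zero))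
  by_cases hA : ∃ a, p.1.1 = sc a
  · obtain ⟨a, hA⟩ := hA
    obtain ⟨b, hB, hab⟩ := hsc hA ha hb hdet
    rcases hab with rfl | rfl
    · exact absurd (Phi_ker.2 ⟨b, Prod.ext hA hB⟩) h1
    · refine ⟨1, one_mem _, ?_⟩
      have hp : p = ⟨(dg2 a a, dg2 (-a) (-a)), mem_pairs.2 (by rw [det_dg2, det_dg2]; simp)⟩ :=
        Subtype.ext (Prod.ext hA hB)
      rw [hp, Phi_diag (by simp), one_mul, inv_one, mul_one, h₀]
      exact tor_congr (by simp [zz]) (by simp [zz])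
  · push Not at hA
    by_cases hB : ∃ b, p.1.2 = sc b
    · obtain ⟨b, hB⟩ := hB
      obtain ⟨a, hA', -⟩ := hsc hB hb ha hdet.symm
      exact absurd hA' (hA a)
    · push Not at hB
      exact (conj_Y_of_pair h2 ha hb hA hB).symm.trans (Y_conj_h₀ h2 z)

end CfsgLib.Chev.G2Odd
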