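import Cfsg.Agent.Chev.G2Odd.Involution
import Cfsg.Agent.S1059

/-!
# Conjugacy and centralisers of involutions in `G₂(q)`, `q` odd
-/

set_option autoImplicit false
set_option maxRecDepth 100000
set_option linter.unusedSectionVars false

namespace CfsgLib.Chev.G2Odd

open Cfsg.Lie CfsgLib.Chev Matrix

universe u

variable {F : Type u} [Field F]

/-- The group. -/
abbrev Grp (F : Type u) [Field F] : Type u := ↥(chevG2.group F)

/-- The map on pairs into the group. -/
noncomputable def PhiG : pairs F →* Grp F := Phi.codRestrict _ Phi_mem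

theorem coe_PhiG (p : pairs F) : (PhiG p : GL chevG2.Idx F) = Phi p := rfl

/-- The involution in the group. -/
noncomputable def hG : Grp F := ⟨h₀, h₀_mem⟩

theorem PhiG_negPair : PhiG (negPair (F := F)) = hG := Subtype.ext Phi_negPair

theorem PhiG_ker {p : pairs F} : PhiG p = 1 ↔ ∃ z : Fˣ, p.1 = (sc z, sc z) := by
  rw [← Phi_ker, Subtype.ext_iff]; rfl

theorem hG_ne (h2 : (2 : F) ≠ 0) : (hG : Grp F) ≠ 1 := fun e => by
  rw [← PhiG_negPair, PhiG_ker] at e
  obtain ⟨z, hz⟩ := e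
  have e1 := congrArg (fun x : GL (Fin 2) F × GL (Fin 2) F => (x.1 : Matrix (Fin 2) (Fin 2) F) 0 0) hz
  have e2 := congrArg (fun x : GL (Fin 2) F × GL (Fin 2) F => (x.2 : Matrix (Fin 2) (Fin 2) F) 0 0) hz
  simp [negPair, sc, coe_dg2] at e1 e2
  exact h2 (by linear_combination e1 - e2)

theorem hG_sq : (hG : Grp F) * hG = 1 := by
  rw [← PhiG_negPair, ← map_mul, PhiG_ker]
  exact ⟨1, by
    show (negPair (F := F)).1 * negPair.1 = _
    refine Prod.ext ?_ ?_ <;> exact Units.ext (by simp [negPair, sc, coe_dg2, Matrix.mul_fin_two])⟩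

theorem centralizer_hG (h2 : (2 : F) ≠ 0) :
    Subgroup.centralizer ({hG} : Set (Grp F)) = (PhiG (F := F)).range := by
  ext g
  rw [Subgroup.mem_centralizer_singleton_iff]
  constructor
  · intro h
    obtain ⟨p, hp⟩ := centralizer_range h2 g.2 (congrArg Subtype.val h).symm
    exact ⟨p, Subtype.ext hp⟩
  · rintro ⟨p, rfl⟩
    exact Subtype.ext (range_commutes ⟨p, rfl⟩).symm

/-- Pairs of equal determinant as triples. -/
noncomputable def pairsEquiv :
    pairs F ≃ Fˣ × SpecialLinearGroup (Fin 2) F × SpecialLinearGroup (Fin 2) F where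
  toFun p := (GeneralLinearGroup.det p.1.1, spart p.1.1, spart p.1.2)
  invFun x := ⟨(dd x.1 * SpecialLinearGroup.toGL x.2.1, dd x.1 * SpecialLinearGroup.toGL x.2.2), mem_pairs.2
    ((spart_unique rfl).1.trans (spart_unique rfl).1.symm)⟩
  left_inv p := Subtype.ext (Prod.ext (dd_spart _) (by
    show dd (GeneralLinearGroup.det p.1.1) * SpecialLinearGroup.toGL (spart p.1.2) = p.1.2
    rw [mem_pairs.1 p.2]
    exact dd_spart _))
  right_inv x := Prod.ext (spart_unique rfl).1 (Prod.ext (spart_unique rfl).2 (spart_unique rfl).2)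

variable [Fintype F]

theorem card_ker : Nat.card (PhiG (F := F)).ker = Fintype.card F - 1 := by
  let f : Fˣ → (PhiG (F := F)).ker := fun z =>
    ⟨⟨(sc z, sc z), mem_pairs.2 rfl⟩, PhiG_ker.2 ⟨z, rfl⟩⟩
  have hf : Function.Bijective f := by
    refine ⟨fun z z' e => ?_, fun p => ?_⟩
    · have e1 := congrArg (fun x : (PhiG (F := F)).ker => (x.1.1.1 : Matrix (Fin 2) (Fin 2) F) 0 0) e
      simp [f, sc, coe_dg2] at e1
      exact Units.ext e1
    · obtain ⟨z, hz⟩ := PhiG_ker.1 p.2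
      exact ⟨z, Subtype.ext (Subtype.ext hz.symm)⟩
  rw [← Nat.card_eq_of_bijective f hf, Nat.card_units, Nat.card_eq_fintype_card]

theorem card_centralizer_hG (h2 : (2 : F) ≠ 0) :
    Nat.card (Subgroup.centralizer ({hG} : Set (Grp F))) =
      Fintype.card F ^ 2 * (Fintype.card F ^ 2 - 1) ^ 2 := by
  rw [centralizer_hG h2]
  have h := Subgroup.card_mul_index (PhiG (F := F)).ker
  rw [Subgroup.index_ker, card_ker, Nat.card_congr pairsEquiv, Nat.card_prod, Nat.card_prod, Nat.card_units,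
    CfsgLib.SL2.card_SL2, Nat.card_eq_fintype_card (α := F)] at h
  have hq := Fintype.one_lt_card (α := F)
  refine (Nat.eq_of_mul_eq_mul_left (show 0 < Fintype.card F - 1 by omega) ?_)
  rw [h]; ring

theorem two_ne_zero' (hF : Odd (Fintype.card F)) : (2 : F) ≠ 0 := by
  intro h
  have : CharP F 2 := CharTwo.of_one_ne_zero_of_two_eq_zero one_ne_zero h
  exact (Nat.not_even_iff_odd.2 hF) (Nat.even_iff.2 (FiniteField.even_card_of_char_two (ringChar.eq F 2)))

theorem isConj_hG (hF : Odd (Fintype.card F)) {s : Grp F} (hs : orderOf s = 2) : IsConj s hG := by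
  have h2 := two_ne_zero' hF
  haveI := Sys.finite_GL (D := chevG2) (F := F)
  haveI : Fact (Nat.Prime 2) := ⟨Nat.prime_two⟩
  set C := Subgroup.centralizer ({hG} : Set (Grp F)) with hC
  set q := Fintype.card F with hqdef
  have hcard : Nat.card (Grp F) = Nat.card C * (q ^ 4 * (q ^ 4 + q ^ 2 + 1)) := by
    rw [Cfsg.Agent.S1059.result (F := F) hqdef.symm, card_centralizer_hG h2]
    have h1 : 1 ≤ q ^ 2 := Nat.one_le_pow _ _ Fintype.card_pos
    have h6 : q ^ 6 - 1 = (q ^ 2 - 1) * (q ^ 4 + q ^ 2 + 1) := by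
      zify [h1, Nat.one_le_pow 6 q Fintype.card_pos]
      ring
    rw [h6]; ring
  have hidx : C.index = q ^ 4 * (q ^ 4 + q ^ 2 + 1) := by
    refine Nat.eq_of_mul_eq_mul_left (Nat.card_pos (α := C)) ?_
    rw [Subgroup.card_mul_index, hcard]
  have hodd : ¬ 2 ∣ C.index := by
    rw [hidx, ← even_iff_two_dvd, Nat.not_even_iff_odd]
    exact (hF.pow).mul (Even.add_one ((hF.pow).add_odd hF.pow))
  -- a Sylow 2-subgroup of the centraliser is one of the group
  obtain ⟨P, hP⟩ : ∃ P : Sylow 2 (Grp F), (P : Subgroup (Grp F)) ≤ C := by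
    let Q : Sylow 2 C := default
    have hQ : IsPGroup 2 ((Q : Subgroup C).map C.subtype) := Q.2.map _
    refine ⟨hQ.toSylow ?_, Subgroup.map_subtype_le _⟩
    rw [Subgroup.index_map_subtype]
    exact fun h => ((Nat.Prime.dvd_mul Nat.prime_two).1 h).elim Q.not_dvd_index hodd
  have hp : IsPGroup 2 (Subgroup.zpowers s) :=
    IsPGroup.of_card (n := 1) (by rw [Nat.card_zpowers, hs, pow_one])
  obtain ⟨T, hT⟩ := hp.exists_le_sylow
  obtain ⟨g, hg⟩ := MulAction.exists_smul_eq (Grp F) T P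
  set y := g * s * g⁻¹ with hy
  have hyC : y ∈ C := hP (by
    rw [← hg, Sylow.coe_subgroup_smul, Subgroup.mem_pointwise_smul_iff_inv_smul_mem]
    have : (MulAut.conj g)⁻¹ • y = s := by simp [MulAut.smul_def, hy, mul_assoc]
    rw [this]
    exact hT (Subgroup.mem_zpowers s))
  rw [hC, centralizer_hG h2] at hyC
  obtain ⟨p, hp'⟩ := hyC
  have hy2 : orderOf y = 2 := by
    rw [hy]; exact (MulAut.conj g).orderOf_eq s ▸ hs
  have h1 : Phi p ≠ 1 := fun e => by
    have : y = 1 := by rw [← hp']; exact Subtype.ext e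
    rw [this, orderOf_one] at hy2
    norm_num at hy2
  have hsq : Phi p * Phi p = 1 := by
    have : y * y = 1 := by rw [← pow_two, ← hy2, pow_orderOf_eq_one]
    rw [← hp'] at this
    exact congrArg Subtype.val this
  obtain ⟨k, hk, e⟩ := involution_of_range h2 h1 hsq
  refine isConj_iff.2 ⟨⟨k, hk⟩ * g, Subtype.ext ?_⟩
  have hp'' : (Phi p : GL chevG2.Idx F) = (g : GL chevG2.Idx F) * s * (g : GL chevG2.Idx F)⁻¹ :=
    congrArg Subtype.val hp'
  rw [hp''] at e
  push_cast
  rw [← show _ = (hG : Grp F).1 from e]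
  group

theorem structure_hG (h2 : (2 : F) ≠ 0) :
    ∃ L₁ L₂ : Subgroup (Grp F), Nonempty (L₁ ≃* SpecialLinearGroup (Fin 2) F) ∧
      Nonempty (L₂ ≃* SpecialLinearGroup (Fin 2) F) ∧ (∀ x ∈ L₁, ∀ y ∈ L₂, x * y = y * x) ∧
      L₁ ⊓ L₂ = Subgroup.zpowers hG ∧ L₁ ⊔ L₂ ≤ Subgroup.centralizer ({hG} : Set (Grp F)) ∧
      (L₁ ⊔ L₂).relIndex (Subgroup.centralizer ({hG} : Set (Grp F))) = 2 := by
  haveI := Sys.finite_GL (D := chevG2) (F := F)
  let i₁ : SpecialLinearGroup (Fin 2) F →* Grp F := (phi ra).codRestrict _ (phi_mem ra)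
  let i₂ : SpecialLinearGroup (Fin 2) F →* Grp F := (phi rc).codRestrict _ (phi_mem rc)
  have hi₁ : Function.Injective i₁ := fun a b e => phi_a_injective (congrArg Subtype.val e)
  have hi₂ : Function.Injective i₂ := fun a b e => phi_c_injective (congrArg Subtype.val e)
  have hcomm : ∀ a b, i₁ a * i₂ b = i₂ b * i₁ a := fun a b => Subtype.ext (phi_commute a b)
  have hp : ∀ a b, i₁ a * i₂ b = PhiG (pSL a b) := fun a b => Subtype.ext (Phi_pSL a b).symm
  let mneg : SpecialLinearGroup (Fin 2) F := ⟨!![-1, 0; 0, -1], by simp [Matrix.det_fin_two]⟩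
  have hsl : SpecialLinearGroup.toGL mneg = sc (-1) := Units.ext (show !![(-1 : F), 0; 0, -1] = !![((-1 : Fˣ) : F), 0; 0, ((-1 : Fˣ) : F)] by simp)
  have hsl' : SpecialLinearGroup.toGL (1 : SpecialLinearGroup (Fin 2) F) = sc 1 := by
    rw [map_one]; exact Units.ext (by simp [sc, coe_dg2, Matrix.one_fin_two])
  -- the kernel
  have hker : ∀ a b, i₁ a * i₂ b = 1 → (a = 1 ∧ b = 1) ∨ (a = mneg ∧ b = mneg) := by
    intro a b e
    rw [hp, PhiG_ker] at e
    obtain ⟨z, hz⟩ := e
    have hza : SpecialLinearGroup.toGL a = sc z := congrArg Prod.fst hz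
    have hzb : SpecialLinearGroup.toGL b = sc z := congrArg Prod.snd hz
    have hd : (z : F) * z = 1 := by
      have := congrArg GeneralLinearGroup.det hza
      rw [show GeneralLinearGroup.det (SpecialLinearGroup.toGL a) = 1 from Units.ext a.2, sc, det_dg2] at this
      simpa using (congrArg Units.val this).symm
    rcases mul_self_eq_one_iff.1 hd with h | h
    · have : z = 1 := Units.ext h
      subst this
      exact Or.inl ⟨SpecialLinearGroup.toGL_injective (hza.trans hsl'.symm),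
        SpecialLinearGroup.toGL_injective (hzb.trans hsl'.symm)⟩
    · have : z = -1 := Units.ext (by rw [h]; simp)
      subst this
      exact Or.inr ⟨SpecialLinearGroup.toGL_injective (hza.trans hsl.symm),
        SpecialLinearGroup.toGL_injective (hzb.trans hsl.symm)⟩
  have hmm : mneg * mneg = 1 := by
    refine SpecialLinearGroup.toGL_injective ?_
    rw [map_mul, hsl, hsl']
    exact Units.ext (by simp [sc, coe_dg2, Matrix.mul_fin_two])
  have hh1 : i₁ mneg = hG := by
    rw [show i₁ mneg = i₁ mneg * i₂ 1 by simp, hp, ← PhiG_negPair]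
    rw [← div_eq_one, ← map_div, PhiG_ker]
    refine ⟨-1, ?_⟩
    have : pSL mneg 1 = ⟨(sc (-1), sc (-1)), mem_pairs.2 rfl⟩ * negPair := by
      refine Subtype.ext (Prod.ext ?_ ?_)
      · show SpecialLinearGroup.toGL mneg = sc (-1) * dg2 1 1
        rw [hsl]; exact Units.ext (by simp [sc, coe_dg2, Matrix.mul_fin_two])
      · show SpecialLinearGroup.toGL (1 : SpecialLinearGroup (Fin 2) F) = sc (-1) * dg2 (-1) (-1)
        rw [hsl']; exact Units.ext (by simp [sc, coe_dg2, Matrix.mul_fin_two])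
    rw [this, mul_div_cancel_right]
  have hhm : i₁ mneg * i₂ mneg = 1 := by
    rw [hp, PhiG_ker]; exact ⟨-1, Prod.ext hsl hsl⟩
  have hh2 : i₂ mneg = hG := by
    have e := hhm
    rw [hh1] at e
    rw [← inv_eq_of_mul_eq_one_right e]
    exact inv_eq_of_mul_eq_one_right hG_sq
  refine ⟨i₁.range, i₂.range, ⟨(MonoidHom.ofInjective hi₁).symm⟩, ⟨(MonoidHom.ofInjective hi₂).symm⟩,
    ?_, ?_, ?_, ?_⟩
  · rintro _ ⟨a, rfl⟩ _ ⟨b, rfl⟩; exact hcomm a b
  · refine le_antisymm ?_ (Subgroup.zpowers_le.2 ⟨⟨mneg, hh1⟩, ⟨mneg, hh2⟩⟩)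
    rintro x ⟨⟨a, ha⟩, ⟨b, hb⟩⟩
    have : i₁ a * i₂ b⁻¹ = 1 := by rw [map_inv, hb, ha, mul_inv_cancel]
    rcases hker a b⁻¹ this with ⟨rfl, -⟩ | ⟨rfl, -⟩
    · rw [← ha, map_one]; exact one_mem _
    · rw [← ha, hh1]; exact Subgroup.mem_zpowers _
  · rw [centralizer_hG h2, sup_le_iff]
    refine ⟨?_, ?_⟩
    · rintro _ ⟨a, rfl⟩; exact ⟨pSL a 1, by rw [← hp, map_one, mul_one]⟩
    · rintro _ ⟨b, rfl⟩; exact ⟨pSL 1 b, by rw [← hp, map_one, one_mul]⟩
  · let j : SpecialLinearGroup (Fin 2) F × SpecialLinearGroup (Fin 2) F →* Grp F :=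
      i₁.noncommCoprod i₂ fun a b => hcomm a b
    have hj : j.range = i₁.range ⊔ i₂.range := MonoidHom.noncommCoprod_range _ _ _
    have hjker : Nat.card j.ker = 2 := by
      rw [Nat.card_eq_two_iff]
      refine ⟨1, ⟨(mneg, mneg), (show i₁ mneg * i₂ mneg = 1 from hhm)⟩, ?_, ?_⟩
      · intro e
        have := congrArg (fun x : j.ker => SpecialLinearGroup.toGL x.1.1) e
        simp only [OneMemClass.coe_one, Prod.fst_one] at this
        rw [hsl', hsl] at this
        have h' := congrArg (fun x : GL (Fin 2) F => (x : Matrix (Fin 2) (Fin 2) F) 0 0) this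
        simp [sc, coe_dg2] at h'
        exact h2 (by linear_combination h')
      · refine Set.eq_univ_of_forall fun x => ?_
        rcases hker x.1.1 x.1.2 (show i₁ x.1.1 * i₂ x.1.2 = 1 from x.2) with ⟨e1, e2⟩ | ⟨e1, e2⟩
        · exact Or.inl (Subtype.ext (Prod.ext e1 e2))
        · exact Or.inr (Subtype.ext (Prod.ext e1 e2))
    have hle : j.range ≤ Subgroup.centralizer ({hG} : Set (Grp F)) := by
      rw [centralizer_hG h2]
      rintro _ ⟨x, rfl⟩
      exact ⟨pSL x.1 x.2, (hp _ _).symm⟩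
    rw [← hj]
    have e1 := Subgroup.card_mul_index j.ker
    rw [Subgroup.index_ker, hjker, Nat.card_prod, CfsgLib.SL2.card_SL2] at e1
    have e2 : j.range.relIndex (Subgroup.centralizer ({hG} : Set (Grp F))) * Nat.card j.range =
        Nat.card (Subgroup.centralizer ({hG} : Set (Grp F))) := by
      rw [Subgroup.relIndex, mul_comm, ← Nat.card_congr (Subgroup.subgroupOfEquivOfLe hle).toEquiv]
      exact Subgroup.card_mul_index _
    rw [card_centralizer_hG h2] at e2
    have hpos : 0 < Nat.card j.range := Nat.card_pos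
    refine Nat.eq_of_mul_eq_mul_right hpos (e2.trans ?_)
    rw [e1]; ring

theorem involution_centralizer (hF : Odd (Fintype.card F)) {t : Grp F} (ht : orderOf t = 2) :
    Nat.card (Subgroup.centralizer ({t} : Set (Grp F))) =
      Fintype.card F ^ 2 * (Fintype.card F ^ 2 - 1) ^ 2 ∧
    ∃ L₁ L₂ : Subgroup (Grp F), Nonempty (L₁ ≃* SpecialLinearGroup (Fin 2) F) ∧
      Nonempty (L₂ ≃* SpecialLinearGroup (Fin 2) F) ∧ (∀ x ∈ L₁, ∀ y ∈ L₂, x * y = y * x) ∧
      L₁ ⊓ L₂ = Subgroup.zpowers t ∧ L₁ ⊔ L₂ ≤ Subgroup.centralizer ({t} : Set (Grp F)) ∧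
      (L₁ ⊔ L₂).relIndex (Subgroup.centralizer ({t} : Set (Grp F))) = 2 := by
  have h2 := two_ne_zero' hF
  obtain ⟨g, hg⟩ := isConj_iff.1 (isConj_hG hF ht).symm
  set e := MulAut.conj g with he
  have het : e hG = t := hg
  have hmap : (Subgroup.centralizer ({hG} : Set (Grp F))).map e.toMonoidHom =
      Subgroup.centralizer ({t} : Set (Grp F)) := by
    ext x
    rw [Subgroup.mem_map_equiv, Subgroup.mem_centralizer_singleton_iff, Subgroup.mem_centralizer_singleton_iff,
      ← e.injective.eq_iff, map_mul, map_mul, MulEquiv.apply_symm_apply, het]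
  refine ⟨?_, ?_⟩
  · rw [← hmap, ← card_centralizer_hG h2]
    exact (Nat.card_congr (Subgroup.equivMapOfInjective _ _ e.injective).toEquiv).symm
  obtain ⟨L₁, L₂, ⟨a⟩, ⟨b⟩, hc, hi, hle, hr⟩ := structure_hG (F := F) h2
  refine ⟨L₁.map e.toMonoidHom, L₂.map e.toMonoidHom,
    ⟨(Subgroup.equivMapOfInjective L₁ _ e.injective).symm.trans a⟩,
    ⟨(Subgroup.equivMapOfInjective L₂ _ e.injective).symm.trans b⟩, ?_, ?_, ?_, ?_⟩
  · rintro _ ⟨x, hx, rfl⟩ _ ⟨y, hy, rfl⟩
    rw [← map_mul, ← map_mul, hc x hx y hy]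
  · rw [← Subgroup.map_inf _ _ _ e.injective, hi, MonoidHom.map_zpowers]
    exact congrArg Subgroup.zpowers het
  · rw [← Subgroup.map_sup, ← hmap]; exact Subgroup.map_mono hle
  · rw [← Subgroup.map_sup, ← hmap, Subgroup.relIndex_map_map_of_injective _ _ e.injective]; exact hr

end CfsgLib.Chev.G2Odd
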